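import Cfsg.Agent.H49.JC.Sc

/-!
# The case `T = S`
-/

set_option autoImplicit false
set_option linter.style.haveILetI false
set_option linter.unusedSectionVars false

namespace Cfsg.Agent.H49.JC

open Subgroup Cfsg H11 H34
open scoped commutatorElement

universe u

variable {G : Type u} [Group G] [Finite G] {T K T' K' L M P R : Subgroup G} {S : Sylow 2 G} {x : G}

theorem S_not_straddling (c : MCtx S L) (H : Hyp G)
    (hall : ∀ K', JComp (S : Subgroup G) K' → K' ≤ L) :
    (S : Subgroup G) ∉ straddlingTwoSubgroups L := by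
  rintro ⟨-, -, -, N, hN, hSN, hNL⟩
  apply hNL
  have hsyl : IsSylowTwoIn (S : Subgroup G) N := sylowIn_of_le (isSylowTwoIn_sylow S) hSN le_top
  by_cases hJ : JJ (S : Subgroup G) ≤ pCoreOf 2 N
  · have h1 : JJ (pCoreOf 2 N) = JJ (S : Subgroup G) :=
      thompson_eq_of_le hJ (pCoreOf_le_sylowIn hsyl)
    refine le_trans ?_ c.hMJ
    rw [← h1]
    exact (le_normalizer_pCoreOf (p := 2)).trans normalizer_le_thompson
  · have h := H.lc_of_twoLocal hN hsyl hJ
    rw [← h.gen]
    exact sup_le (sSup_le fun K' hK' => hall K' hK'.1) (inf_le_right.trans c.hMJ)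

theorem MCtx.eq_false (c : MCtx S M) (H : Hyp G)
    (hT : (S : Subgroup G) ∈ maxStraddlingTwoSubgroups M) (hK : JComp (S : Subgroup G) K)
    (hKM : ¬ K ≤ M) (hO : pCoreOf 2 (K ⊔ (S : Subgroup G)) ≠ ⊥)
    (hall : ∀ K', JComp (S : Subgroup G) K' → K' ≤ LL (S : Subgroup G) K) : False := by
  have hL := c.LL_mem H hT hK hKM hO
  have hmax := c.LL_max H hT hK hKM
  have hNJ : normalizer (JJ (S : Subgroup G) : Set G) ≤ LL (S : Subgroup G) K := by
    intro g hg
    have hgM : g ∈ M := c.hMJ hg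
    have hK' := hK.conj_of_normalizer hg
    have hK'M : ¬ cj g K ≤ M := by
      intro h
      apply hKM
      rw [← cj_le_cj (g := g), cj_self hgM]
      exact h
    have h1 := c.LL_eq_of_le H hT hK hKM hK' hK'M (hall _ hK')
    rw [← LL_cj hg] at h1
    exact maxTwoLocal_normalizer hmax (mem_normalizer_iff_cj.2 h1)
  have c' : MCtx S (LL (S : Subgroup G) K) := ⟨c.hO, hmax.1, hNJ⟩
  exact scenario c' H hL (S_not_straddling c' H hall)

/-- components of `S` do not centralize `Ω₁(Z(S))` -/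
theorem Hyp.not_le_cent_S (H : Hyp G) (hK : JComp (S : Subgroup G) K) :
    ¬ K ≤ centralizer (omegaCenterOf (S : Subgroup G) : Set G) := by
  intro h
  apply hK.not_isPGroup
  have h1 : K ≤ (S : Subgroup G) := by
    rw [← hK.comm_eq]
    refine (Subgroup.commutator_mono le_rfl JJ_le).trans ?_
    rw [Subgroup.commutator_comm]
    exact commutator_le_of_normalizer (h.trans (H.hZ S))
  exact S.isPGroup'.to_le h1

theorem MCtx.card_eq (c : MCtx S M) (H : Hyp G)
    (hT : (S : Subgroup G) ∈ maxStraddlingTwoSubgroups M) (hK : JComp (S : Subgroup G) K)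
    (hKM : ¬ K ≤ M) (hO : pCoreOf 2 (K ⊔ (S : Subgroup G)) ≠ ⊥) :
    omegaCenterOf (S : Subgroup G) = Z0 (S : Subgroup G) ∧
      (Nat.card ↥(Z0 (S : Subgroup G)) = 2 ∨ Nat.card ↥(Z0 (S : Subgroup G)) = 4) := by
  set Z := omegaCenterOf (S : Subgroup G) with hZ
  have hL := c.LL_mem H hT hK hKM hO
  have hS := max_pGroup hT
  have hZle : Z ≤ Z0 (S : Subgroup G) := omega_T_le
  have hZne : Z ≠ ⊥ := omega_S_ne_bot (max_ne_bot hT)
  have h4 : Nat.card ↥(Z0 (S : Subgroup G)) ≤ 4 := by
    by_contra hcon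
    apply c.eq_false H hT hK hKM hO
    intro K' hK'
    apply c.LL_eq_of_inf H hT hK hKM hK'
    intro h
    exact hcon (hK.card_le_of_inf hK' hS h)
  have h1 := hK.card_DK hS
  have h2 : Nat.card ↥(Z0 (S : Subgroup G)) = 2 ∨ Nat.card ↥(Z0 (S : Subgroup G)) = 4 := by
    obtain ⟨k, hk⟩ := IsPGroup.iff_card.1 (isPGroup_of_elementary (elem_Z0 (T := (S : Subgroup G))))
    rw [hk] at h4 h1 ⊢
    rcases k with _ | _ | _ | k
    · norm_num at h1
      omega
    · norm_num
    · norm_num
    · exfalso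
      have : 2 ^ (k + 1 + 1 + 1) = 8 * 2 ^ k := by ring
      have h10 : 0 < 2 ^ k := by positivity
      omega
  refine ⟨?_, h2⟩
  rcases h2 with h2 | h2
  · exact sub_eq_of_card_two h2 hZle hZne
  -- order 4
  by_contra hne
  have hZ2 : Nat.card ↥Z = 2 := by
    have h5 : Nat.card ↥Z ∣ 4 := by
      rw [← h2]
      exact Subgroup.card_dvd_of_le hZle
    rw [show 4 = 2 ^ 2 by rfl, Nat.dvd_prime_pow Nat.prime_two] at h5
    obtain ⟨k, hk, hk'⟩ := h5
    interval_cases k
    · exact absurd (Subgroup.card_eq_one.1 (by simpa using hk')) hZne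
    · simpa using hk'
    · exact absurd (Subgroup.eq_of_le_of_card_ge hZle (by rw [hk', h2]; norm_num)) hne
  obtain ⟨e, he1, heZ⟩ := exists_gen_of_card_two hZ2
  have heZ' : e ∈ Z := heZ.ge (mem_zpowers e)
  have heZ0 : e ∈ Z0 (S : Subgroup G) := hZle heZ'
  -- an element of `S` not centralizing `Z₀`
  obtain ⟨s, hs, hsC⟩ : ∃ s ∈ (S : Subgroup G), s ∉ centralizer (Z0 (S : Subgroup G) : Set G) := by
    by_contra hcon
    push Not at hcon
    apply hne
    apply le_antisymm hZle
    apply le_omegaCenterOf (Z0_le.trans JJ_le)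
    · rw [Subgroup.le_centralizer_iff]
      exact hcon
    · exact elem_Z0.2
  have hse : s * e * s⁻¹ = e := by
    have := (mem_omegaCenterOf.1 heZ').2.1 s hs
    rw [this]
    group
  have hDe : ∀ {K'}, JComp (S : Subgroup G) K' → e ∉ DK (S : Subgroup G) K' := by
    intro K' hK' he
    apply H.not_le_cent_S hK'
    rw [← hZ, heZ, Subgroup.le_centralizer_iff, zpowers_le]
    exact he.2
  have hDc : ∀ {K'}, JComp (S : Subgroup G) K' → Nat.card ↥(DK (S : Subgroup G) K') = 2 := by
    intro K' hK'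
    have := hK'.card_DK hS
    omega
  apply c.eq_false H hT hK hKM hO
  intro K' hK'
  by_cases hinf : DK (S : Subgroup G) K ⊓ DK (S : Subgroup G) K' = ⊥
  · obtain ⟨d, hd1, hdD⟩ := exists_gen_of_card_two (hDc hK)
    obtain ⟨d', hd'1, hd'D⟩ := exists_gen_of_card_two (hDc hK')
    have hdm : d ∈ DK (S : Subgroup G) K := hdD.ge (mem_zpowers d)
    have hd'm : d' ∈ DK (S : Subgroup G) K' := hd'D.ge (mem_zpowers d')
    have hde : d ≠ e := fun h => hDe hK (h ▸ hdm)
    have hd'e : d' ≠ e := fun h => hDe hK' (h ▸ hd'm)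
    have hdd' : d ≠ d' := by
      rintro rfl
      apply hd1
      have : d ∈ DK (S : Subgroup G) K ⊓ DK (S : Subgroup G) K' := ⟨hdm, hd'm⟩
      rwa [hinf, Subgroup.mem_bot] at this
    have hall := all_of_card_four h2 hdm.1 hd'm.1 heZ0 hd1 hd'1 he1 hdd' hde hd'e
    have hsN : s ∈ normalizer (Z0 (S : Subgroup G) : Set G) := normalizer_le_Z0 (le_normalizer hs)
    have hinj : ∀ a b : G, s * a * s⁻¹ = s * b * s⁻¹ → a = b := by
      intro a b hab
      have : a = s⁻¹ * (s * a * s⁻¹) * s := by group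
      rw [this, hab]
      group
    have hsd : s * d * s⁻¹ = d' := by
      rcases hall _ ((mem_normalizer_iff.1 hsN d).1 hdm.1) with h | h | h | h
      · exfalso
        apply hd1
        apply hinj
        rw [h]
        group
      · exfalso
        apply hsC
        have hsd' : s * d' * s⁻¹ = d' := by
          rcases hall _ ((mem_normalizer_iff.1 hsN d').1 hd'm.1) with h' | h' | h' | h'
          · exfalso
            apply hd'1
            apply hinj
            rw [h']
            group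
          · exact absurd (hinj _ _ (h'.trans h.symm)) hdd'.symm
          · exact h'
          · exact absurd (hinj _ _ (h'.trans hse.symm)) hd'e
        rw [mem_centralizer_iff]
        have key : ∀ a : G, s * a * s⁻¹ = a → a * s = s * a := by
          intro a ha
          have h6 : s * a = (s * a * s⁻¹) * s := by group
          rw [h6, ha]
        intro a ha
        rcases hall a ha with rfl | rfl | rfl | rfl
        · group
        · exact key _ h
        · exact key _ hsd'
        · exact key _ hse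
      · exact h
      · exact absurd (hinj _ _ (h.trans hse.symm)) hde
    have hsJ : s ∈ normalizer (JJ (S : Subgroup G) : Set G) :=
      normalizer_le_thompson (le_normalizer hs)
    have hDD : DK (S : Subgroup G) (cj s K) = DK (S : Subgroup G) K' := by
      rw [DK_cj hsJ, hdD, hd'D, cj_zpowers', hsd]
    have hK1 := hK.conj_of_normalizer hsJ
    have hK1M : ¬ cj s K ≤ M := by
      intro h
      apply hKM
      rw [← cj_le_cj (g := s), cj_self (c.S_le hs)]
      exact h
    have hK1L : cj s K ≤ LL (S : Subgroup G) K :=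
      cj_le_of_mem (hL.1.1 hs) (le_sup_left.trans (c.sup_le_LL H hT hK hKM))
    have h5 := c.LL_eq_of_inf H hT hK1 hK1M hK' (by
      rw [hDD, inf_idem]
      intro h
      have := hDc hK'
      rw [h, Subgroup.card_bot] at this
      omega)
    rwa [c.LL_eq_of_le H hT hK hKM hK1 hK1M hK1L] at h5
  · exact c.LL_eq_of_inf H hT hK hKM hK' hinf

/-- in all cases `T` centralizes `Z₀`, of order 2 or 4. -/
theorem MCtx.T_cent (c : MCtx S M) (H : Hyp G) (hT : T ∈ maxStraddlingTwoSubgroups M)
    (hTS : T ≤ (S : Subgroup G)) (hK : JComp T K) (hKM : ¬ K ≤ M)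
    (hO : pCoreOf 2 (K ⊔ T) ≠ ⊥) : T ≤ centralizer (Z0 T : Set G) ∧
      (Nat.card ↥(Z0 T) = 2 ∨ Nat.card ↥(Z0 T) = 4) := by
  by_cases hne : T = (S : Subgroup G)
  · subst hne
    obtain ⟨h1, h2⟩ := c.card_eq H hT hK hKM hO
    refine ⟨?_, h2⟩
    rw [← h1]
    exact le_centralizer_omegaCenterOf
  · obtain ⟨x, hxS, hxN, hxT, -⟩ := exists_sq_mem S.isPGroup' (lt_of_le_of_ne hTS hne)
    exact ⟨c.T_le_centralizer H hT hTS hxS hxN hxT hK hKM hO,
      c.card_Z0 H hT hTS hxS hxN hxT hK hKM hO⟩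

theorem MCtx.flK (c : MCtx S M) (H : Hyp G) (hT : T ∈ maxStraddlingTwoSubgroups M)
    (hTS : T ≤ (S : Subgroup G)) (hK : JComp T K) (hKM : ¬ K ≤ M)
    (hO : pCoreOf 2 (K ⊔ T) ≠ ⊥) : FlK T K :=
  H.flK (c.LL_mem H hT hK hKM hO) hK (le_sup_left.trans (c.sup_le_LL H hT hK hKM))
    (c.T_cent H hT hTS hK hKM hO).1

end Cfsg.Agent.H49.JC
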