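import Cfsg.Agent.H49.JC.Eq

/-!
# S2951, S2952
-/

set_option autoImplicit false
set_option linter.style.haveILetI false
set_option linter.unusedSectionVars false

namespace Cfsg.Agent.H49.JC

open Subgroup Cfsg H11 H34
open scoped commutatorElement

universe u

variable {G : Type u} [Group G] [Finite G] {T K T' K' L M P R : Subgroup G} {S : Sylow 2 G} {x : G}

theorem s2951 (c : MCtx S M) (H : Hyp G) (hT : T ∈ maxStraddlingTwoSubgroups M)
    (hTS : T ≤ (S : Subgroup G)) (hK : K ∈ jComponentsOutside M T)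
    (hLmax : IsMaximalTwoLocal L) (hKL : K ⊔ JJ T ≤ L) :
    Z0 T ⊓ wOf K ≠ ⊥ ∧
      ((omegaCenterOf (S : Subgroup G) = Z0 T ∧ Nat.card ↥(Z0 T) = 2) ∨
        (omegaCenterOf (S : Subgroup G) = Z0 T ∧ Nat.card ↥(Z0 T) = 4 ∧ T = (S : Subgroup G)) ∨
        (omegaCenterOf T = Z0 T ∧ Nat.card ↥(Z0 T) = 4 ∧
          (L ⊓ centralizer (Z0 T : Set G)).relIndex (normalizer (Z0 T : Set G)) = 2)) := by
  obtain ⟨hK0, hKM, hO⟩ := mem_outside_iff.1 hK
  have hK' : JComp T K := (jComponentsZero_iff.1 hK0).1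
  constructor
  · intro h
    have := hK'.card_z (max_pGroup hT)
    rw [h, Subgroup.card_bot] at this
    omega
  rw [c.LL_unique H hT hK' hKM hLmax hKL]
  by_cases hne : T = (S : Subgroup G)
  · subst hne
    obtain ⟨h1, h2 | h4⟩ := c.card_eq H hT hK' hKM hO
    · exact Or.inl ⟨h1, h2⟩
    · exact Or.inr (Or.inl ⟨h1, h4, rfl⟩)
  · obtain ⟨x, hxS, hxN, hxT, -⟩ := exists_sq_mem S.isPGroup' (lt_of_le_of_ne hTS hne)
    rcases c.card_Z0 H hT hTS hxS hxN hxT hK' hKM hO with h2 | h4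
    · left
      refine ⟨?_, h2⟩
      apply Subgroup.eq_of_le_of_card_ge (omega_S_le H hTS (c.LL_mem H hT hK' hKM hO))
      rw [h2, c.card_omega_S H hT hTS hxS hxN hxT hK' hKM hO]
    · right
      right
      exact ⟨c.Z0_eq H hT hTS hxS hxN hxT hK' hKM hO, h4,
        c.relIndex_two_of_lt H hT hTS hxS hxN hxT hK' hKM hO h4⟩

theorem s2952 (c : MCtx S M) (H : Hyp G) (hT : T ∈ maxStraddlingTwoSubgroups M)
    (hK : K ∈ jComponentsOutside M T) : (K.subgroupOf (K ⊔ T)).Normal := by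
  obtain ⟨hK0, hKM, hO⟩ := mem_outside_iff.1 hK
  have hK' : JComp T K := (jComponentsZero_iff.1 hK0).1
  obtain ⟨S', c', hTS'⟩ := c.exists_sylow_ge (max_le hT) (max_pGroup hT)
  have f := c'.flK H hT hTS' hK' hKM hO
  exact (Subgroup.normal_subgroupOf_iff_le_normalizer le_sup_left).2 (sup_le le_normalizer f.nrm)

end Cfsg.Agent.H49.JC
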