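import Cfsg.Agent.H49.JC.St

/-!
# The case `T < S`: assembly
-/

set_option autoImplicit false
set_option linter.style.haveILetI false
set_option linter.unusedSectionVars false

namespace Cfsg.Agent.H49.JC

open Subgroup Cfsg H11 H34
open scoped commutatorElement

universe u

variable {G : Type u} [Group G] [Finite G] {T K T' K' L M P : Subgroup G} {S : Sylow 2 G} {x : G}

theorem exists_sq_mem {D Q : Subgroup G} (hQ : IsPGroup 2 Q) (hDQ : D < Q) :
    ∃ x ∈ Q, x ∈ normalizer (D : Set G) ∧ x ∉ D ∧ x ^ 2 ∈ D := by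
  classical
  obtain ⟨x, hxQ, hxN, hxD⟩ := exists_mem_normalizer hQ hDQ
  have hex : ∃ n : ℕ, x ^ 2 ^ n ∈ D := by
    obtain ⟨k, hk⟩ := hQ ⟨x, hxQ⟩
    refine ⟨k, ?_⟩
    have := congrArg Subtype.val hk
    simp only [Subgroup.coe_pow, Subgroup.coe_one] at this
    rw [this]
    exact one_mem _
  have h1 := Nat.find_spec hex
  have h2 := fun {m : ℕ} (hm : m < Nat.find hex) => Nat.find_min hex hm
  set n := Nat.find hex with hn
  obtain ⟨m, hm⟩ : ∃ m, n = m + 1 := by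
    refine ⟨n - 1, ?_⟩
    have : n ≠ 0 := by
      intro h0
      rw [h0] at h1
      simp only [pow_zero, pow_one] at h1
      exact hxD h1
    omega
  refine ⟨x ^ 2 ^ m, pow_mem hxQ _, pow_mem hxN _, h2 (by omega), ?_⟩
  rw [← pow_mul, ← pow_succ, ← hm]
  exact h1

/-- overgroups of `K T` inside a member of `jOvergroups T` -/
theorem Hyp.mem_sub (_H : Hyp G) (hL : L ∈ jOvergroups T) (hPL : P ≤ L) (hTP : T ≤ P)
    (hK : JComp T K) (hKP : K ≤ P) : P ∈ jOvergroups T := by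
  have h1 : pCoreOf 2 L ≤ pCoreOf 2 P :=
    le_pCoreOf' ((pCoreOf_le_sylowIn hL.1).trans hTP) (hPL.trans le_normalizer_pCoreOf)
      isPGroup_pCoreOf
  refine ⟨sylowIn_of_le hL.1 hTP hPL, ?_, ?_⟩
  · intro h
    apply hK.not_isPGroup
    have h2 : K ≤ pCoreOf 2 P := by
      rw [← hK.comm_eq]
      refine (Subgroup.commutator_mono hKP h).trans ?_
      rw [Subgroup.commutator_comm]
      exact commutator_le_of_normalizer le_normalizer_pCoreOf
    exact isPGroup_pCoreOf.to_le h2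
  · exact (Subgroup.centralizer_le h1).trans (hL.2.2.trans h1)

theorem JComp.zw_ne_bot (hK : JComp T K) (hT : IsPGroup 2 T)
    (hTC : T ≤ centralizer (Z0 T : Set G)) :
    T ⊓ centralizer (T : Set G) ⊓ wOf K ≠ ⊥ := by
  intro h
  have h1 := hK.card_z hT
  have h2 : Z0 T ⊓ wOf K ≤ ⊥ := by
    rw [← h]
    refine inf_le_inf (le_inf (Z0_le.trans JJ_le) ?_) le_rfl
    rw [Subgroup.le_centralizer_iff]
    exact hTC
  rw [le_bot_iff.1 h2, Subgroup.card_bot] at h1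
  omega

theorem Hyp.flK (H : Hyp G) (hL : L ∈ jOvergroups T) (hK : JComp T K) (hKL : K ≤ L)
    (hTC : T ≤ centralizer (Z0 T : Set G)) : FlK T K := by
  have h := H.lc_of_mem hL
  have hTK : T ≤ normalizer (K : Set G) := h.le_normalizer_of_inf hK hKL (hK.zw_ne_bot h.hT hTC)
  exact flK_of (H.lc_of_mem (H.mem_sub hL (sup_le hKL hL.1.1) le_sup_right hK le_sup_left)) hK hTK
    hTC

/-- `L = K T` -/
theorem FlK.eq_of (f : FlK T K) (H : Hyp G) (hL : L ∈ jOvergroups T) (hKL : K ≤ L)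
    (hQV : Qo (K ⊔ T) = Vo (K ⊔ T))
    (hZ : Nat.card ↥(omegaCenterOf T) = 2 ∨ Nat.card ↥(omegaCenterOf T) = 4) : L = K ⊔ T := by
  have h := H.lc_of_mem hL
  have hPL : K ⊔ T ≤ L := sup_le hKL hL.1.1
  have hcD := f.fl.card_D
  have hD2 : Nat.card ↥(Do (K ⊔ T)) = 1 ∨ Nat.card ↥(Do (K ⊔ T)) = 2 := by omega
  have h1 : pCoreOf 2 L ≤ Qo (K ⊔ T) :=
    le_pCoreOf' (h.O_le.trans le_sup_right) (hPL.trans le_normalizer_pCoreOf) isPGroup_pCoreOf
  have h2 : pCoreOf 2 L = Vo (K ⊔ T) := by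
    rw [← hQV]
    apply le_antisymm h1
    have h3 : Qo (K ⊔ T) ≤ centralizer (Qo (K ⊔ T) : Set G) := by
      rw [hQV]
      exact (comm_iff_le_centralizer _).1 elem_Vo.1
    exact (h3.trans (Subgroup.centralizer_le h1)).trans hL.2.2
  have hLV : L ≤ normalizer (Vo (K ⊔ T) : Set G) := by
    rw [← h2]
    exact le_normalizer_pCoreOf
  have hLK : L ≤ normalizer (K : Set G) := by
    intro g hg
    have hK' := h.conj f.jc hKL hg
    rcases h.dichotomy f.jc hKL h.syl hK' (cj_le_of_mem hg hKL) with h3 | ⟨h3, -⟩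
    · exact mem_normalizer_iff_cj.2 h3.symm
    · exfalso
      have h4 : wOf (cj g K) ≤ Vo (K ⊔ T) := by
        rw [← h2]
        exact (h.w_le hK' (cj_le_of_mem hg hKL)).trans omegaCenterOf_le
      have h5 := card_sup_of_disjoint
        (le_normalizer_of_comm (A := Vo (K ⊔ T)) elem_Vo.1 f.W_le h4) h3
      rw [f.jc.card_w, hK'.card_w] at h5
      have h6 := Subgroup.card_le_of_le (sup_le f.W_le h4)
      rw [h5, f.fl.cardV] at h6
      omega
  have hLD : L ≤ centralizer (Do (K ⊔ T) : Set G) := by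
    have h3 : L ≤ normalizer (Do (K ⊔ T) : Set G) := by
      rw [f.D_eq]
      exact H11.le_normalizer_inf hLV (H11.le_normalizer_centralizer hLK)
    rcases hD2 with h4 | h4
    · rw [Subgroup.card_eq_one.1 h4]
      intro g _
      rw [mem_centralizer_iff]
      rintro y rfl
      simp
    · exact le_centralizer_of_card_two h4 h3
  have h3 : L ⊓ centralizer (wOf K : Set G) ≤ Vo (K ⊔ T) := by
    have h4 : L ⊓ centralizer (wOf K : Set G) ≤ centralizer (pCoreOf 2 L : Set G) := by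
      rw [h2, Subgroup.le_centralizer_iff, ← f.sup_eq]
      refine sup_le ?_ ?_
      · rw [Subgroup.le_centralizer_iff]
        exact inf_le_right
      · rw [Subgroup.le_centralizer_iff]
        exact inf_le_left.trans hLD
    rw [← h2]
    exact h4.trans hL.2.2
  have h4 : (L ⊓ centralizer (wOf K : Set G)).relIndex L ≤ 6 :=
    Nat.le_of_dvd (by norm_num) (relIndex_centralizer_four f.jc.card_w
      (hLK.trans normalizer_le_wOf))
  have h5 := card_mul_relIndex (inf_le_left : L ⊓ centralizer (wOf K : Set G) ≤ L)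
  have h6 := Subgroup.card_le_of_le h3
  symm
  apply Subgroup.eq_of_le_of_card_ge hPL
  rw [← h5, (f.card_P hQV).1]
  rw [(f.card_P hQV).2.2] at h6
  calc _ ≤ 4 * Nat.card ↥(Do (K ⊔ T)) * 6 := Nat.mul_le_mul h6 h4
    _ = 24 * Nat.card ↥(Do (K ⊔ T)) := by ring

/-- the configuration in the case `T < S` -/
structure LtData (S : Sylow 2 G) (M T K : Subgroup G) (x : G) : Prop where
  TS : T ≤ (S : Subgroup G)
  xS : x ∈ (S : Subgroup G)
  xN : x ∈ normalizer (T : Set G)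
  xT : x ∉ T
  x2 : x ^ 2 ∈ T
  flK : FlK T K
  am : Am T (K ⊔ T) (cj x (K ⊔ T))
  swap : cj x (cj x (K ⊔ T)) = K ⊔ T
  notM : ¬ K ≤ M
  LL_eq : LL T K = K ⊔ T
  max : IsMaximalTwoLocal (K ⊔ T)
  mem : K ⊔ T ∈ jOvergroups T
  cZ : Nat.card ↥(omegaCenterOf T) = 2 ∨ Nat.card ↥(omegaCenterOf T) = 4
  Q1 : Qo (K ⊔ T) = Vo (K ⊔ T)
  V12 : Vo (K ⊔ T) ⊓ Vo (cj x (K ⊔ T)) = omegaCenterOf T
  T12 : Vo (K ⊔ T) ⊔ Vo (cj x (K ⊔ T)) = T
  cS : Nat.card ↥(omegaCenterOf (S : Subgroup G)) = 2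
  nZ : Nat.card ↥(omegaCenterOf T) = 4 →
    normalizer (omegaCenterOf T : Set G) ≤ centralizer (omegaCenterOf (S : Subgroup G) : Set G)
  ZS_le : omegaCenterOf (S : Subgroup G) ≤ omegaCenterOf T

theorem MCtx.lt_data (c : MCtx S M) (H : Hyp G) (hT : T ∈ maxStraddlingTwoSubgroups M)
    (hTS : T ≤ (S : Subgroup G)) (hne : T ≠ (S : Subgroup G)) :
    ∃ (K : Subgroup G) (x : G), LtData S M T K x := by
  obtain ⟨K, hK0, hKM, hO⟩ := c.outside_nonempty H hT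
  have hK : JComp T K := (jComponentsZero_iff.1 hK0).1
  obtain ⟨x, hxS, hxN, hxT, hx2⟩ := exists_sq_mem S.isPGroup' (lt_of_le_of_ne hTS hne)
  have hL := c.LL_mem H hT hK hKM hO
  have hKL : K ≤ LL T K := le_sup_left.trans (c.sup_le_LL H hT hK hKM)
  have hTC := c.T_le_centralizer H hT hTS hxS hxN hxT hK hKM hO
  have f := H.flK hL hK hKL hTC
  have hcjT : cj x T = T := cj_of_mem hxN
  have hcZ : Nat.card ↥(omegaCenterOf T) = 2 ∨ Nat.card ↥(omegaCenterOf T) = 4 := by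
    rw [f.Z_eq]
    exact c.card_Z0 H hT hTS hxS hxN hxT hK hKM hO
  have hP2 : cj x (K ⊔ T) = cj x K ⊔ T := by rw [cj_sup, hcjT]
  have hswap : cj x (cj x (K ⊔ T)) = K ⊔ T := by
    rw [← cj_mul, ← pow_two, cj_self ((le_sup_right : T ≤ K ⊔ T) hx2)]
  have hK' : JComp T (cj x K) := hK.conj_of_normalizer (normalizer_le_thompson hxN)
  have hx3 : ¬ cj x K ≤ M := c.cj_not_le H hT hxS hKM
  have am : Am T (K ⊔ T) (cj x (K ⊔ T)) := by
    refine ⟨f.fl, ?_, ?_⟩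
    · have := f.fl.cj (g := x)
      rwa [hcjT] at this
    · intro X hX h1 h2
      by_contra hX1
      apply c.LL_ne H hT hTS hxS hxN hxT hK hKM hO
      apply c.LL_eq_of_le H hT hK hKM hK' hx3
      refine le_trans ?_ (c.le_LL H hT hK hKM ⟨X, hX, hX1, rfl⟩
        ((sup_le_sup le_rfl JJ_le).trans h1))
      rw [hP2] at h2
      exact le_sup_left.trans h2
  have hmain := sym_main am ⟨x, rfl, hswap⟩ hcZ
  obtain ⟨hQ1, hQ2, hV12, hT12⟩ := am.b_one hmain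
  have hLP : LL T K = K ⊔ T := f.eq_of H hL hKL hQ1 hcZ
  refine ⟨K, x, hTS, hxS, hxN, hxT, hx2, f, am, hswap, hKM, hLP, ?_, ?_, hcZ, hQ1, hV12, hT12,
    c.card_omega_S H hT hTS hxS hxN hxT hK hKM hO, ?_, ?_⟩
  · rw [← hLP]
    exact c.LL_max H hT hK hKM
  · rw [← hLP]
    exact hL
  · rw [f.Z_eq]
    exact c.normalizer_Z0_le H hT hTS hxS hxN hxT hK hKM hO
  · rw [f.Z_eq]
    exact omega_S_le H hTS hL

namespace LtData

variable (d : LtData S M T K x)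
include d

theorem V2_not_le : ¬ Vo (cj x (K ⊔ T)) ≤ Vo (K ⊔ T) := by
  intro h
  have h1 := d.T12
  rw [sup_eq_left.2 h] at h1
  apply d.flK.fl.T_not_le
  rw [d.Q1, h1]

theorem exists_t : ∃ t ∈ Vo (cj x (K ⊔ T)), t ∉ Vo (K ⊔ T) := Set.not_subset.1 d.V2_not_le

theorem iso : (Nat.card ↥(omegaCenterOf T) = 2 → Nonempty (↥(K ⊔ T) ≃* Equiv.Perm (Fin 4))) ∧
      (Nat.card ↥(omegaCenterOf T) = 4 →
        Nonempty (↥(K ⊔ T) ≃* Equiv.Perm (Fin 4) × Multiplicative (ZMod 2))) := by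
  obtain ⟨t, ht, htV⟩ := d.exists_t
  exact d.flK.iso d.Q1 (by rw [← d.T12]; exact (le_sup_right : Vo (cj x (K ⊔ T)) ≤ _) ht)
    (elem_Vo.2 t ht) htV

end LtData

theorem isMaximalTwoLocal_cj {g : G} (h : IsMaximalTwoLocal L) : IsMaximalTwoLocal (cj g L) := by
  refine ⟨isTwoLocal_cj h.1, ?_⟩
  intro N hN hLN
  have h1 := h.2 (cj g⁻¹ N) (isTwoLocal_cj hN) (by rw [le_cj_iff, inv_inv]; exact hLN)
  rw [← h1, cj_cj_inv]

/-- S2954 for `T < S` -/
theorem MCtx.lt_main (c : MCtx S M) (H : Hyp G) (hT : T ∈ maxStraddlingTwoSubgroups M)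
    (hTS : T ≤ (S : Subgroup G)) (hne : T ≠ (S : Subgroup G)) :
    ∃ P₁ P₂ : Subgroup G, P₁ ≠ P₂ ∧ IsMaximalTwoLocal P₁ ∧ IsMaximalTwoLocal P₂ ∧
      IsSylowTwoIn T P₁ ∧ IsSylowTwoIn T P₂ ∧
      ((Nonempty (↥P₁ ≃* Equiv.Perm (Fin 4)) ∧ Nonempty (↥P₂ ≃* Equiv.Perm (Fin 4))) ∨
        (Nonempty (↥P₁ ≃* Equiv.Perm (Fin 4) × Multiplicative (ZMod 2)) ∧
          Nonempty (↥P₂ ≃* Equiv.Perm (Fin 4) × Multiplicative (ZMod 2)))) := by
  obtain ⟨K, x, d⟩ := c.lt_data H hT hTS hne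
  obtain ⟨i2, i4⟩ := d.iso
  have e : ↥(cj x (K ⊔ T)) ≃* ↥(K ⊔ T) :=
    ((K ⊔ T).equivMapOfInjective (MulAut.conj x).toMonoidHom (MulAut.conj x).injective).symm
  refine ⟨_, _, d.am.ne, d.max, isMaximalTwoLocal_cj d.max, d.flK.fl.syl, d.am.f2.syl, ?_⟩
  rcases d.cZ with h | h
  · left
    obtain ⟨e1⟩ := i2 h
    exact ⟨⟨e1⟩, ⟨e.trans e1⟩⟩
  · right
    obtain ⟨e1⟩ := i4 h
    exact ⟨⟨e1⟩, ⟨e.trans e1⟩⟩

end Cfsg.Agent.H49.JC
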