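import Cfsg.Agent.H49.JC.Fin

/-!
# The amalgam of two components: S2953
-/

set_option autoImplicit false
set_option linter.style.haveILetI false
set_option linter.unusedSectionVars false

namespace Cfsg.Agent.H49.JC

open Subgroup Cfsg H11 H34
open scoped commutatorElement

universe u

variable {G : Type u} [Group G] [Finite G] {T K T' K' K₁ K₂ L L₁ L₂ M P R : Subgroup G}
  {S : Sylow 2 G} {x : G}

/-- a component with its unique maximal 2-local subgroup -/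
structure Cmp (T K L : Subgroup G) : Prop where
  fl : FlK T K
  max : IsMaximalTwoLocal L
  mem : L ∈ jOvergroups T
  KL : K ≤ L
  le : ∀ N : Subgroup G, IsTwoLocal N → K ⊔ JJ T ≤ N → N ≤ L
  cZ : Nat.card ↥(Z0 T) = 2 ∨ Nat.card ↥(Z0 T) = 4

theorem MCtx.cmp (c : MCtx S M) (H : Hyp G) (hT : T ∈ maxStraddlingTwoSubgroups M)
    (hTS : T ≤ (S : Subgroup G)) (hK : JComp T K) (hKM : ¬ K ≤ M)
    (hO : pCoreOf 2 (K ⊔ T) ≠ ⊥) : Cmp T K (LL T K) :=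
  ⟨c.flK H hT hTS hK hKM hO, c.LL_max H hT hK hKM, c.LL_mem H hT hK hKM hO,
    le_sup_left.trans (c.sup_le_LL H hT hK hKM), fun _ hN hKN => c.le_LL H hT hK hKM hN hKN,
    (c.T_cent H hT hTS hK hKM hO).2⟩

namespace Cmp

theorem TL (d : Cmp T K L) : T ≤ L := d.mem.1.1

theorem PL (d : Cmp T K L) : K ⊔ T ≤ L := sup_le d.KL d.TL

theorem PmemJ (d : Cmp T K L) (H : Hyp G) : K ⊔ T ∈ jOvergroups T :=
  H.mem_sub d.mem d.PL le_sup_right d.fl.jc le_sup_left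

theorem conj (d : Cmp T K L) (H : Hyp G) (hx : x ∈ normalizer (T : Set G)) :
    Cmp T (cj x K) (cj x L) := by
  have hxJ : x ∈ normalizer (JJ T : Set G) := normalizer_le_thompson hx
  have hK : JComp T (cj x K) := d.fl.jc.conj_of_normalizer hxJ
  have hmem : cj x L ∈ jOvergroups T := by
    have hcT : cj x T = T := cj_of_mem hx
    refine ⟨?_, ?_, ?_⟩
    · have := isSylowTwoIn_cj (g := x).2 d.mem.1
      rwa [hcT] at this
    · intro h1
      apply d.mem.2.1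
      rw [← cj_le_cj (g := x), cj_pCoreOf, cj_thompson, hcT]
      exact h1
    · rw [← cj_pCoreOf, ← cj_centralizer]
      exact cj_mono d.mem.2.2
  refine ⟨H.flK hmem hK (cj_mono d.KL) d.fl.cen, isMaximalTwoLocal_cj d.max, hmem,
    cj_mono d.KL, ?_, d.cZ⟩
  intro N hN hKN
  have h1 := d.le (cj x⁻¹ N) (isTwoLocal_cj hN) (by
    rw [le_cj_iff, inv_inv, cj_sup, cj_of_mem hxJ]
    exact hKN)
  rwa [cj_le_iff, inv_inv] at h1

theorem am (d₁ : Cmp T K₁ L₁) (d₂ : Cmp T K₂ L₂) (h : ¬ K₂ ≤ L₁) : Am T (K₁ ⊔ T) (K₂ ⊔ T) := by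
  refine ⟨d₁.fl.fl, d₂.fl.fl, ?_⟩
  intro X hX h1 h2
  by_contra hX1
  apply h
  refine le_trans (le_sup_left.trans h2) ?_
  exact d₁.le _ ⟨X, hX, hX1, rfl⟩ ((sup_le_sup le_rfl JJ_le).trans h1)

theorem props (d : Cmp T K L) (H : Hyp G) :
    Subgroup.centralizer (Cfsg.pCoreOf 2 (K ⊔ T) : Set G) ≤ Cfsg.pCoreOf 2 (K ⊔ T) ∧
      Cfsg.IsSylowTwoIn T (K ⊔ T) ∧
        (Cfsg.pCoreOf 2 (K ⊔ T)).relIndex (K ⊔ T) = 6 ∧
        ¬ ⁅K ⊔ T, K ⊔ T⁆ ≤ Cfsg.pCoreOf 2 (K ⊔ T) ∧ ⁅Cfsg.omegaCenterOf T, K ⊔ T⁆ ≠ ⊥ ∧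
        ∃ L : Subgroup G, Cfsg.IsMaximalTwoLocal L ∧ K ⊔ T ≤ L ∧ Cfsg.IsSylowTwoIn T L ∧
          ∀ L' : Subgroup G, Cfsg.IsMaximalTwoLocal L' → K ⊔ T ≤ L' → L' = L := by
  have f := d.fl.fl
  refine ⟨(d.PmemJ H).2.2, f.syl, ?_, ?_, ?_, L, d.max, d.PL, d.mem.1, ?_⟩
  · rw [← Subgroup.relIndex_mul_relIndex _ _ _ f.Q_le f.le, f.qidx, f.idx]
  · intro h
    apply f.not_normal
    apply le_normalizer_of_conj
    intro p hp t ht
    have h1 : p * t * p⁻¹ * t⁻¹ ∈ T :=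
      (h.trans f.Q_le) (Subgroup.commutator_mem_commutator hp (f.le ht))
    have h2 : p * t * p⁻¹ = (p * t * p⁻¹ * t⁻¹) * t := by group
    rw [h2]
    exact mul_mem h1 ht
  · intro h
    apply f.zo_ne_bot
    rw [eq_bot_iff, ← f.zo_inf]
    refine le_inf le_rfl (zo_le_Z.trans ?_)
    exact Subgroup.commutator_eq_bot_iff_le_centralizer.1 h
  · intro L' hL' hPL'
    exact (hL'.2 L d.max.1 (d.le L' hL'.1 ((sup_le_sup le_rfl JJ_le).trans hPL'))).symm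

end Cmp

/-- a Sylow 2-subgroup in `𝒯(L)` is maximal -/
theorem sylow_max (h : (S : Subgroup G) ∈ straddlingTwoSubgroups L) :
    (S : Subgroup G) ∈ maxStraddlingTwoSubgroups L := by
  refine ⟨h, ?_⟩
  intro T' hT'
  obtain ⟨g, -, hg⟩ := le_cj_sylowIn (isSylowTwoIn_sylow S) le_top hT'.1
  have h1 : maxElemAbelianOrder T' ≤ maxElemAbelianOrder (S : Subgroup G) := by
    rw [← maxElem_cj (g := g) (T := (S : Subgroup G))]
    exact maxElem_mono hg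
  refine ⟨h1, fun h2 => ⟨?_, fun _ => ?_⟩⟩
  · have h3 : JJ T' ≤ JJ (cj g (S : Subgroup G)) := thompson_mono hg (by rw [maxElem_cj, h2])
    have h4 := Subgroup.card_le_of_le h3
    rwa [card_JJ_cj] at h4
  · rw [← card_cj (g := g) (K := (S : Subgroup G))]
    exact Subgroup.card_le_of_le hg

/-- `N(Z) ≤ N(S)` -/
theorem Hyp.normalizer_Z_le (H : Hyp G) (S : Sylow 2 G) :
    normalizer (omegaCenterOf (S : Subgroup G) : Set G) ≤
      normalizer ((S : Subgroup G) : Set G) := by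
  intro g hg
  have hSC : (S : Subgroup G) ≤ centralizer (omegaCenterOf (S : Subgroup G) : Set G) :=
    le_centralizer_omegaCenterOf
  obtain ⟨n, hn, y, -, hy, rfl⟩ := frattini_sylowIn
    (sylowIn_of_le (isSylowTwoIn_sylow S) hSC le_top) (Subgroup.centralizer_le_normalizer _)
    (H11.le_normalizer_centralizer le_rfl) g hg
  exact mul_mem (H.hZ S hn) hy

/-- the pair -/
theorem MCtx.pair (c : MCtx S M) (H : Hyp G) (hT : T ∈ maxStraddlingTwoSubgroups M) :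
    ∃ K₁ K₂ L₁ L₂ : Subgroup G, Cmp T K₁ L₁ ∧ Cmp T K₂ L₂ ∧ ¬ K₂ ≤ L₁ := by
  obtain ⟨K, hK0, hKM, hO⟩ := c.outside_nonempty H hT
  have hK : JComp T K := (jComponentsZero_iff.1 hK0).1
  obtain ⟨S', c', hTS'⟩ := c.exists_sylow_ge (max_le hT) (max_pGroup hT)
  have d := c'.cmp H hT hTS' hK hKM hO
  have key : ∀ x : G, x ∈ normalizer (T : Set G) → x ∉ LL T K → ¬ cj x K ≤ LL T K := by
    intro x hxN hxL h
    apply hxL
    have hxJ : x ∈ normalizer (JJ T : Set G) := normalizer_le_thompson hxN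
    have hxM : x ∈ M := c'.normalizer_J_le hT hxJ
    have hK' := hK.conj_of_normalizer hxJ
    have hK'M : ¬ cj x K ≤ M := by
      intro h
      apply hKM
      rw [← cj_le_cj (g := x), cj_self hxM]
      exact h
    have h1 := c'.LL_eq_of_le H hT hK hKM hK' hK'M h
    rw [← LL_cj hxJ] at h1
    exact maxTwoLocal_normalizer d.max (mem_normalizer_iff_cj.2 h1)
  by_cases hN : normalizer (T : Set G) ≤ LL T K
  · -- then `T = S`
    have hTS : T = (S' : Subgroup G) := by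
      by_contra hne
      obtain ⟨x, hxS, hxN, hxT, -⟩ := exists_sq_mem S'.isPGroup' (lt_of_le_of_ne hTS' hne)
      exact c'.not_mem_LL H hT hTS' hxS hxT d.mem.1 (hN hxN)
    subst hTS
    obtain ⟨hZ, -⟩ := c'.card_eq H hT hK hKM hO
    have hNJ : normalizer (JJ (S' : Subgroup G) : Set G) ≤ LL (S' : Subgroup G) K := by
      refine le_trans ?_ hN
      refine le_trans ?_ (H.normalizer_Z_le S')
      rw [hZ]
      exact normalizer_le_omegaCenterOf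
    have c'' : MCtx S' (LL (S' : Subgroup G) K) := ⟨c'.hO, d.max.1, hNJ⟩
    have hstr : (S' : Subgroup G) ∈ straddlingTwoSubgroups (LL (S' : Subgroup G) K) := by
      by_contra hcon
      exact scenario c'' H d.mem hcon
    have hT'' := sylow_max hstr
    obtain ⟨K₂, hK₂0, hK₂L, hO₂⟩ := c''.outside_nonempty H hT''
    have hK₂ : JComp (S' : Subgroup G) K₂ := (jComponentsZero_iff.1 hK₂0).1
    exact ⟨K, K₂, _, _, d, c''.cmp H hT'' le_rfl hK₂ hK₂L hO₂, hK₂L⟩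
  · obtain ⟨x, hxN, hxL⟩ := Set.not_subset.1 hN
    exact ⟨K, cj x K, _, _, d, d.conj H hxN, key x hxN hxL⟩

theorem s2953 (c : MCtx S M) (H : Hyp G) (hT : T ∈ maxStraddlingTwoSubgroups M) :
    ∃ K₁ K₂ : Subgroup G, K₁ ≠ K₂ ∧ Cfsg.IsJComponent T K₁ ∧ Cfsg.IsJComponent T K₂ ∧
      Cfsg.pCoreOf 2 ((K₁ ⊔ T) ⊔ (K₂ ⊔ T)) = ⊥ ∧
      ∀ P ∈ [K₁ ⊔ T, K₂ ⊔ T],
        Subgroup.centralizer (Cfsg.pCoreOf 2 P : Set G) ≤ Cfsg.pCoreOf 2 P ∧ Cfsg.IsSylowTwoIn T P ∧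
        (Cfsg.pCoreOf 2 P).relIndex P = 6 ∧ ¬ ⁅P, P⁆ ≤ Cfsg.pCoreOf 2 P ∧ ⁅Cfsg.omegaCenterOf T, P⁆ ≠ ⊥ ∧
        ∃ L : Subgroup G, Cfsg.IsMaximalTwoLocal L ∧ P ≤ L ∧ Cfsg.IsSylowTwoIn T L ∧
          ∀ L' : Subgroup G, Cfsg.IsMaximalTwoLocal L' → P ≤ L' → L' = L := by
  obtain ⟨K₁, K₂, L₁, L₂, d₁, d₂, hne⟩ := c.pair H hT
  have am := d₁.am d₂ hne
  refine ⟨K₁, K₂, ?_, jComp_iff.1 d₁.fl.jc, jComp_iff.1 d₂.fl.jc, ?_, ?_⟩
  · rintro rfl
    exact hne d₁.KL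
  · exact am.free _ isPGroup_pCoreOf (le_sup_left.trans le_normalizer_pCoreOf)
      (le_sup_right.trans le_normalizer_pCoreOf)
  · intro P hP
    rw [List.mem_cons, List.mem_singleton] at hP
    rcases hP with rfl | rfl
    · exact d₁.props H
    · exact d₂.props H

end Cfsg.Agent.H49.JC
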