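import Cfsg.Agent.H49.JC.Lt
import Cfsg.Agent.StrEmb.Basic

/-!
# A contradictory configuration
-/

set_option autoImplicit false
set_option linter.style.haveILetI false
set_option linter.unusedSectionVars false

namespace Cfsg.Agent.H49.JC

open Subgroup Cfsg H11 H34
open scoped commutatorElement

universe u

variable {G : Type u} [Group G] [Finite G] {T K T' K' L M P R : Subgroup G} {S : Sylow 2 G} {x : G}

/-- existence of maximal members -/
theorem exists_maxStraddling (h : (straddlingTwoSubgroups M).Nonempty) :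
    (maxStraddlingTwoSubgroups M).Nonempty := by
  obtain ⟨T, hT, hmax⟩ := Set.exists_max_image (straddlingTwoSubgroups M)
    (fun T => toLex (maxElemAbelianOrder T, toLex (Nat.card ↥(JJ T), Nat.card ↥T)))
    (Set.toFinite _) h
  refine ⟨T, hT, ?_⟩
  intro T' hT'
  have h1 := hmax T' hT'
  rw [Prod.Lex.toLex_le_toLex] at h1
  simp only at h1
  rcases h1 with h1 | ⟨h1, h2⟩
  · exact ⟨h1.le, fun h2 => absurd h2 h1.ne⟩
  · refine ⟨h1.le, fun _ => ?_⟩
    rw [Prod.Lex.toLex_le_toLex] at h2
    simp only at h2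
    rcases h2 with h2 | ⟨h2, h3⟩
    · exact ⟨h2.le, fun h3 => absurd h3 h2.ne⟩
    · exact ⟨h2.le, fun _ => h3⟩

theorem mem_jOvergroups_cj {g : G} (hg : g ∈ L) (h : L ∈ jOvergroups T) :
    L ∈ jOvergroups (cj g T) := by
  have hgL : cj g L = L := cj_self hg
  refine ⟨?_, ?_, h.2.2⟩
  · have := isSylowTwoIn_cj (g := g).2 h.1
    rwa [hgL] at this
  · intro h1
    apply h.2.1
    have h2 : cj g (JJ T) ≤ cj g (pCoreOf 2 L) := by
      rw [cj_pCoreOf, hgL, ← JJ_cj]
      exact h1
    exact cj_le_cj.1 h2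

theorem mem_straddling_cj {g : G} (hg : g ∈ L) (h : cj g T ∈ straddlingTwoSubgroups L) :
    T ∈ straddlingTwoSubgroups L := by
  obtain ⟨h1, h2, h3, N, hN, hTN, hNL⟩ := h
  have hgL : cj g L = L := cj_self hg
  refine ⟨?_, ?_, ?_, cj g⁻¹ N, isTwoLocal_cj hN, ?_, ?_⟩
  · have := isPGroup_cj (g := g⁻¹) h1
    rwa [cj_inv_cj] at this
  · rintro rfl
    exact h2 cj_bot
  · rw [← cj_le_cj (g := g), hgL]
    exact h3
  · rw [le_cj_iff, inv_inv]
    exact hTN
  · intro h4
    apply hNL
    rw [cj_le_iff, inv_inv, hgL] at h4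
    exact h4

/-- `L` does not centralize `Ω₁(Z(S))` -/
theorem Hyp.not_le_centralizer (H : Hyp G) (hL : L ∈ jOvergroups (S : Subgroup G)) :
    ¬ L ≤ centralizer (omegaCenterOf (S : Subgroup G) : Set G) := by
  intro h
  apply hL.2.1
  have h1 : L ≤ normalizer ((S : Subgroup G) : Set G) := h.trans (H.hZ S)
  exact JJ_le.trans (le_pCoreOf' hL.1.1 h1 S.isPGroup')

/-- the strongly embedded case -/
theorem strongly_embedded_false (H : Hyp G) (hL : L ∈ jOvergroups (S : Subgroup G))
    (hs : IsStronglyEmbedded L) : False := by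
  apply hL.2.1
  have hO : omegaCenterOf (pCoreOf 2 L) ≠ ⊥ := by
    intro h
    have h1 := H.not_le_centralizer hL
    apply h1
    have h2 : omegaCenterOf (S : Subgroup G) ≤ omegaCenterOf (pCoreOf 2 L) := by
      have h3 : omegaCenterOf (S : Subgroup G) ≤ centralizer (pCoreOf 2 L : Set G) :=
        omegaCenterOf_le_centralizer.trans (Subgroup.centralizer_le (pCoreOf_le_sylowIn hL.1))
      exact le_omegaCenterOf (h3.trans hL.2.2) h3 isElementaryAbelian_omegaCenterOf.2
    rw [h, le_bot_iff] at h2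
    rw [h2]
    intro y _
    rw [mem_centralizer_iff]
    rintro z rfl
    simp
  obtain ⟨z, hz, hz1⟩ := exists_ne_one hO
  have hz2 : orderOf z = 2 :=
    orderOf_eq_prime (isElementaryAbelian_omegaCenterOf.2 z hz) hz1
  have hzL : z ∈ L := pCoreOf_le (omegaCenterOf_le hz)
  rw [thompson_le_iff]
  intro A hA a ha
  by_cases ha1 : a = 1
  · rw [ha1]
    exact one_mem _
  have ha2 : orderOf a = 2 := orderOf_eq_prime (hA.2.1.2 a ha) ha1
  obtain ⟨g, hg⟩ := isConj_iff.1 (StrEmb.isConj hs hz2 ha2)
  have haL : a ∈ L := hL.1.1 (hA.1 ha)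
  have hgL : g ∈ L := StrEmb.mem_of_conj_mem hs hz2 hzL (by rw [hg]; exact haL)
  have h5 : a ∈ omegaCenterOf (pCoreOf 2 L) := by
    rw [← hg]
    exact conj_mem ((le_normalizer_pCoreOf (p := 2)).trans normalizer_le_omegaCenterOf) hgL hz
  exact omegaCenterOf_le h5

namespace LtData

variable (d : LtData S M R K x)
include d

theorem V1_le : Vo (K ⊔ R) ≤ R := d.flK.fl.V_le

theorem V2_le : Vo (cj x (K ⊔ R)) ≤ R := d.am.f2.V_le

theorem C_V1 : centralizer (Vo (K ⊔ R) : Set G) ≤ Vo (K ⊔ R) := by
  rw [← d.Q1]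
  exact d.mem.2.2

theorem N_V1 : normalizer (Vo (K ⊔ R) : Set G) = K ⊔ R := by
  rw [← d.Q1]
  exact maxTwoLocal_eq d.max

theorem S_inf : (S : Subgroup G) ⊓ (K ⊔ R) = R :=
  sylowIn_max d.flK.fl.syl (Q := (S : Subgroup G) ⊓ (K ⊔ R)) (le_inf d.TS le_sup_right)
      inf_le_right (S.isPGroup'.to_le inf_le_left)

theorem normalizes_V1 {y : G} (hy : y ∈ (S : Subgroup G))
    (hy2 : y ∈ normalizer (Vo (K ⊔ R) : Set G)) : y ∈ R := by
  rw [← d.S_inf]
  refine ⟨hy, ?_⟩
  change y ∈ K ⊔ R
  rw [← d.N_V1]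
  exact hy2

/-- `V₁ = Z ⟨v⟩` -/
theorem V1_eq {v : G} (hv : v ∈ Vo (K ⊔ R)) (hvZ : v ∉ omegaCenterOf R) :
    omegaCenterOf R ⊔ zpowers v = Vo (K ⊔ R) := by
  have h1 : (omegaCenterOf R).relIndex (Vo (K ⊔ R)) = 2 := by
    have h2 := card_mul_relIndex d.flK.fl.zle
    rw [d.flK.fl.cardV, mul_comm] at h2
    exact Nat.eq_of_mul_eq_mul_right Nat.card_pos h2
  rcases eq_or_eq_of_relIndex_prime Nat.prime_two
    (le_sup_left : omegaCenterOf R ≤ omegaCenterOf R ⊔ zpowers v)
    (sup_le d.flK.fl.zle (by rwa [zpowers_le])) h1 with h2 | h2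
  · exfalso
    apply hvZ
    rw [← h2]
    exact (le_sup_right : zpowers v ≤ _) (mem_zpowers v)
  · exact h2

/-- elements of `V₁` and `V₂` do not commute -/
theorem not_comm {v w : G} (hv : v ∈ Vo (K ⊔ R)) (hvZ : v ∉ omegaCenterOf R)
    (hw : w ∈ Vo (cj x (K ⊔ R))) (hvw : v * w = w * v) : w ∈ omegaCenterOf R := by
  rw [← d.V12]
  refine ⟨?_, hw⟩
  apply d.C_V1
  rw [← d.V1_eq hv hvZ]
  have h1 : omegaCenterOf R ⊔ zpowers v ≤ centralizer (zpowers w : Set G) := by
    refine sup_le ?_ ?_
    · refine omegaCenterOf_le_centralizer.trans (Subgroup.centralizer_le ?_)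
      have : zpowers w ≤ R := by
        rw [zpowers_le]
        exact d.V2_le hw
      exact this
    · rw [zpowers_le, mem_centralizer_iff]
      intro z hz
      obtain ⟨i, rfl⟩ := mem_zpowers_iff.1 hz
      have : Commute v w := hvw
      exact (this.zpow_right i).symm
  rw [Subgroup.le_centralizer_iff] at h1
  exact h1 (mem_zpowers w)

theorem cj_Z : cj x (omegaCenterOf R) = omegaCenterOf R := by
  rw [cj_omegaCenterOf, cj_of_mem d.xN]

/-- involutions of `R` -/
theorem mem_or {r : G} (hr : r ∈ R) (hr2 : r ^ 2 = 1) :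
    r ∈ Vo (K ⊔ R) ∨ r ∈ Vo (cj x (K ⊔ R)) := by
  have h1 : r ∈ Vo (K ⊔ R) ⊔ Vo (cj x (K ⊔ R)) := by
    rw [d.T12]
    exact hr
  obtain ⟨v, hv, w, hw, rfl⟩ := (mem_sup_of_le_normalizer
    (d.V1_le.trans (d.am.f2.le.trans le_normalizer_Vo))).1 h1
  by_cases hvZ : v ∈ omegaCenterOf R
  · right
    exact mul_mem (d.am.f2.zle hvZ) hw
  · left
    have hv2 : v ^ 2 = 1 := elem_Vo.2 v hv
    have hw2 : w ^ 2 = 1 := elem_Vo.2 w hw
    have hv' : v⁻¹ = v := by rw [inv_eq_iff_mul_eq_one, ← pow_two, hv2]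
    have hw' : w⁻¹ = w := by rw [inv_eq_iff_mul_eq_one, ← pow_two, hw2]
    have h2 : (v * w)⁻¹ = v * w := by rw [inv_eq_iff_mul_eq_one, ← pow_two, hr2]
    rw [mul_inv_rev, hv', hw'] at h2
    exact mul_mem hv (d.flK.fl.zle (d.not_comm hv hvZ hw h2.symm))

/-- elementary abelian `x`-invariant subgroups of `R` are in the centre -/
theorem inf_le_Z {V : Subgroup G} (hV : IsElementaryAbelian 2 V) (hx : cj x V = V) :
    V ⊓ R ≤ omegaCenterOf R := by
  have key : ∀ v ∈ V, v ∈ Vo (K ⊔ R) → v ∈ omegaCenterOf R := by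
    intro v hvV hv1
    by_contra hvZ
    have h1 : x * v * x⁻¹ ∈ V := by
      have := conj_mem_cj (g := x) hvV
      rwa [hx] at this
    have h2 : x * v * x⁻¹ ∈ Vo (cj x (K ⊔ R)) := by
      rw [Vo_cj]
      exact conj_mem_cj hv1
    have h3 := d.not_comm hv1 hvZ h2 ((comm_iff _).1 hV.1 v hvV _ h1)
    apply hvZ
    rw [← d.cj_Z, mem_cj] at h3
    have : x⁻¹ * (x * v * x⁻¹) * x = v := by group
    rwa [this] at h3
  rintro v ⟨hvV, hvR⟩
  rcases d.mem_or hvR (hV.2 v hvV) with h1 | h1
  · exact key v hvV h1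
  · have h2 : x * v * x⁻¹ ∈ V := by
      have := conj_mem_cj (g := x) hvV
      rwa [hx] at this
    have h3 : x * v * x⁻¹ ∈ Vo (K ⊔ R) := by
      rw [← d.swap, Vo_cj]
      exact conj_mem_cj h1
    have h4 := key _ h2 h3
    rw [← d.cj_Z, mem_cj] at h4
    have : x⁻¹ * (x * v * x⁻¹) * x = v := by group
    rwa [this] at h4

end LtData

/-- `[v, a]` is centralized by the involution `a` -/
theorem comm_mem_centralizer {a v : G} (ha : a ^ 2 = 1) {V : Subgroup G}
    (hV : IsElementaryAbelian 2 V) (hv : v ∈ V) (haV : a * v * a⁻¹ ∈ V) :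
    a * v * a⁻¹ * v⁻¹ ∈ V ⊓ centralizer (zpowers a : Set G) := by
  have h1 : a * v * a⁻¹ * v⁻¹ ∈ V := mul_mem haV (inv_mem hv)
  have ha' : a⁻¹ = a := by rw [inv_eq_iff_mul_eq_one, ← pow_two, ha]
  have hv' : v⁻¹ = v := by
    rw [inv_eq_iff_mul_eq_one, ← pow_two]
    exact hV.2 v hv
  refine ⟨h1, ?_⟩
  change _ ∈ centralizer (zpowers a : Set G)
  rw [mem_centralizer_iff]
  intro z hz
  obtain ⟨i, rfl⟩ := mem_zpowers_iff.1 hz
  have h2 : Commute a (a * v * a⁻¹ * v⁻¹) := by
    have h3 : (a * v * a⁻¹ * v⁻¹)⁻¹ = a * v * a⁻¹ * v⁻¹ := by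
      rw [inv_eq_iff_mul_eq_one, ← pow_two]
      exact hV.2 _ h1
    rw [ha', hv'] at h3 ⊢
    have h4 : (a * v * a * v)⁻¹ = v * a * v * a := by
      simp only [mul_inv_rev, ha', hv', mul_assoc]
    rw [h4] at h3
    change a * (a * v * a * v) = (a * v * a * v) * a
    have h5 : a * (v * a * v * a) = a * v * a * v * a := by simp only [mul_assoc]
    rw [← h5, h3]
  exact (h2.zpow_left i)

theorem le_normalizer_of_comm_zpowers {Z A V : Subgroup G} {a : G}
    (hVZ : V ≤ centralizer (Z : Set G)) (h : ∀ v ∈ V, a * v * a⁻¹ * v⁻¹ ∈ Z)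
    (hA : A = Z ⊔ zpowers a) : V ≤ normalizer (A : Set G) := by
  intro v hv
  apply mem_normalizer_of_cj_le
  rw [hA, cj_sup, cj_zpowers']
  refine sup_le ?_ ?_
  · rw [cj_of_mem (Subgroup.centralizer_le_normalizer _ (hVZ hv))]
    exact le_sup_left
  · rw [zpowers_le]
    have h1 : v * a * v⁻¹ = (a * v * a⁻¹ * v⁻¹)⁻¹ * a := by group
    have h2 := h v hv
    rw [h1]
    exact mul_mem ((le_sup_left : Z ≤ _) (inv_mem h2)) ((le_sup_right : zpowers a ≤ _)
      (mem_zpowers a))

theorem LtData.false (d : LtData S M R K x) (H : Hyp G) (hL : L ∈ jOvergroups (S : Subgroup G)) :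
    False := by
  set Q := pCoreOf 2 L with hQ
  set V := omegaCenterOf Q with hV
  set Z := omegaCenterOf (S : Subgroup G) with hZ
  have hLC := H.lc_of_mem hL
  have hQS : Q ≤ (S : Subgroup G) := hLC.O_le
  have hVQ : V ≤ Q := omegaCenterOf_le
  have hVS : V ≤ (S : Subgroup G) := hVQ.trans hQS
  have hLV : L ≤ normalizer (V : Set G) :=
    (le_normalizer_pCoreOf (p := 2)).trans normalizer_le_omegaCenterOf
  have hVel : IsElementaryAbelian 2 V := isElementaryAbelian_omegaCenterOf
  have hZV : Z ≤ V := by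
    have h3 : Z ≤ centralizer (Q : Set G) :=
      omegaCenterOf_le_centralizer.trans (Subgroup.centralizer_le hQS)
    exact le_omegaCenterOf (h3.trans hL.2.2) h3 isElementaryAbelian_omegaCenterOf.2
  have hxL : x ∈ L := hL.1.1 d.xS
  have hcV : cj x V = V := cj_of_mem (hLV hxL)
  have hVR : V ⊓ R ≤ omegaCenterOf R := d.inf_le_Z hVel hcV
  have hVZ : V ≤ centralizer (Z : Set G) := hVS.trans le_centralizer_omegaCenterOf
  have hVne : ¬ V ≤ Z := by
    intro h
    have h1 : V = Z := le_antisymm h hZV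
    apply H.not_le_centralizer hL
    apply le_centralizer_of_card_two d.cS
    rw [← hZ, ← h1]
    exact hLV
  have hSV : ∀ a ∈ (S : Subgroup G), ∀ v ∈ V, a * v * a⁻¹ ∈ V := fun a ha v hv =>
    conj_mem hLV (hL.1.1 ha) hv
  rcases d.cZ with h2 | h4
  · -- `|R| = 8`
    have hZR : Z = omegaCenterOf R :=
      Subgroup.eq_of_le_of_card_ge d.ZS_le (by rw [h2, d.cS])
    obtain ⟨w, hw, hwZ⟩ : ∃ w ∈ Vo (K ⊔ R), w ∉ omegaCenterOf R := by
      by_contra hcon
      push Not at hcon
      have h3 := Subgroup.card_le_of_le (show Vo (K ⊔ R) ≤ omegaCenterOf R from hcon)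
      rw [d.flK.fl.cardV, h2] at h3
      omega
    have hV1 := d.V1_eq hw hwZ
    have hwS : w ∈ (S : Subgroup G) := d.TS (d.V1_le hw)
    have hCw : V ⊓ centralizer (zpowers w : Set G) ≤ Z := by
      have h5 : V ⊓ centralizer (zpowers w : Set G) ≤ Vo (K ⊔ R) := by
        refine le_trans ?_ d.C_V1
        rw [Subgroup.le_centralizer_iff, ← hV1, ← hZR]
        refine sup_le ?_ ?_
        · rw [Subgroup.le_centralizer_iff]
          exact inf_le_left.trans hVZ
        · rw [Subgroup.le_centralizer_iff]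
          exact inf_le_right
      rw [hZR]
      exact (le_inf inf_le_left (h5.trans d.V1_le)).trans hVR
    have h6 : V ≤ normalizer (Vo (K ⊔ R) : Set G) := by
      apply le_normalizer_of_comm_zpowers (Z := Z) (a := w) hVZ _ (by rw [hZR, hV1])
      intro v hv
      exact hCw (comm_mem_centralizer (elem_Vo.2 w hw) hVel hv (hSV w hwS v hv))
    apply hVne
    rw [hZR]
    refine (le_inf le_rfl ?_).trans hVR
    intro v hv
    exact d.normalizes_V1 (hVS hv) (h6 hv)
  · -- `|R| = 16`
    have hcD : Nat.card ↥(Do (K ⊔ R)) = 2 := by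
      have := d.flK.fl.card_D
      omega
    obtain ⟨a, ha1, haD⟩ := exists_gen_of_card_two hcD
    have haD' : a ∈ Do (K ⊔ R) := haD.ge (mem_zpowers a)
    have haZ : a ∈ omegaCenterOf R := d.flK.fl.D_le_Z haD'
    have haR : a ∈ R := omegaCenterOf_le haZ
    have haS : a ∈ (S : Subgroup G) := d.TS haR
    have ha2 : a ^ 2 = 1 := elem_Vo.2 a haD'.1
    have hNa : normalizer (zpowers a : Set G) = K ⊔ R := by
      apply d.max.2
      · refine ⟨_, ?_, ?_, rfl⟩
        · rw [← haD]
          exact isPGroup_of_elementary (elem_mono inf_le_left elem_Vo)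
        · rw [Ne, zpowers_eq_bot]
          exact ha1
      · rw [← haD]
        refine le_trans ?_ (Subgroup.centralizer_le_normalizer _)
        rw [Subgroup.le_centralizer_iff]
        exact inf_le_right
    have hVa : V ⊓ centralizer (zpowers a : Set G) ≤ V ⊓ omegaCenterOf R := by
      refine le_inf inf_le_left ?_
      refine le_trans (le_inf inf_le_left ?_) hVR
      rw [← d.S_inf, ← hNa]
      exact inf_le_inf hVS (Subgroup.centralizer_le_normalizer _)
    by_cases haQ : a ∈ Q
    · -- `a ∈ Q`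
      have h5 : V ≤ centralizer (zpowers a : Set G) := by
        refine omegaCenterOf_le_centralizer.trans (Subgroup.centralizer_le ?_)
        have : zpowers a ≤ Q := by rwa [zpowers_le]
        exact this
      have h6 : V ≤ omegaCenterOf R := ((le_inf le_rfl h5).trans hVa).trans inf_le_right
      have h7 : V = omegaCenterOf R := by
        apply Subgroup.eq_of_le_of_card_ge h6
        rw [h4]
        have h8 : Nat.card ↥V ∣ 4 := by
          rw [← h4]
          exact Subgroup.card_dvd_of_le h6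
        have h9 : 2 < Nat.card ↥V := by
          by_contra hcon
          push Not at hcon
          apply hVne
          apply (Subgroup.eq_of_le_of_card_ge hZV ?_).ge
          rw [d.cS]
          exact hcon
        rw [show 4 = 2 ^ 2 by rfl, Nat.dvd_prime_pow Nat.prime_two] at h8
        obtain ⟨k, hk, hk'⟩ := h8
        interval_cases k <;> omega
      apply H.not_le_centralizer hL
      refine le_trans ?_ (d.nZ h4)
      rw [← h7]
      exact hLV
    · -- `a ∉ Q`
      have hU : V ⊓ omegaCenterOf R ≤ Z := by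
        by_contra hcon
        have h5 : Z ≤ V ⊓ omegaCenterOf R := le_inf hZV d.ZS_le
        have h6 : 2 < Nat.card ↥(V ⊓ omegaCenterOf R) := by
          by_contra hcon2
          push Not at hcon2
          apply hcon
          apply (Subgroup.eq_of_le_of_card_ge h5 ?_).ge
          rw [d.cS]
          exact hcon2
        have h8 : Nat.card ↥(V ⊓ omegaCenterOf R) ∣ 4 := by
          rw [← h4]
          exact Subgroup.card_dvd_of_le inf_le_right
        have h9 : Nat.card ↥(V ⊓ omegaCenterOf R) = 4 := by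
          rw [show 4 = 2 ^ 2 by rfl, Nat.dvd_prime_pow Nat.prime_two] at h8
          obtain ⟨k, hk, hk'⟩ := h8
          interval_cases k
          · omega
          · omega
          · exact hk'
        have h10 : V ⊓ omegaCenterOf R = omegaCenterOf R :=
          Subgroup.eq_of_le_of_card_ge inf_le_right (by rw [h9, h4])
        apply haQ
        apply hVQ
        rw [inf_eq_right] at h10
        exact h10 haZ
      have hCa : V ⊓ centralizer (zpowers a : Set G) ≤ Z := hVa.trans hU
      have hca : ∀ v ∈ V, a * v * a⁻¹ * v⁻¹ ∈ Z := fun v hv =>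
        hCa (comm_mem_centralizer ha2 hVel hv (hSV a haS v hv))
      have haNV : a ∈ normalizer (V : Set G) := hLV (hL.1.1 haS)
      -- `|V| ≤ 4`
      have hcV4 : Nat.card ↥V ≤ 4 := by
        have h5 := card_commutator_mul_card_centralizer hVel.1 haNV
        have h6 : Nat.card ↥⁅V, zpowers a⁆ ≤ 2 := by
          rw [← d.cS]
          apply Subgroup.card_le_of_le
          rw [Subgroup.commutator_comm, Subgroup.commutator_le]
          intro y hy v hv
          obtain ⟨i, rfl⟩ := mem_zpowers_iff.1 hy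
          rcases Int.even_or_odd i with ⟨j, hj⟩ | ⟨j, hj⟩
          · have : a ^ i = 1 := by
              rw [hj, ← two_mul, zpow_mul]
              have : a ^ (2 : ℤ) = 1 := by exact_mod_cast ha2
              rw [this, one_zpow]
            rw [this, commutatorElement_one_left]
            exact one_mem _
          · have : a ^ i = a := by
              rw [hj, zpow_add, zpow_mul, zpow_one]
              have : a ^ (2 : ℤ) = 1 := by exact_mod_cast ha2
              rw [this, one_zpow, one_mul]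
            rw [this]
            exact hca v hv
        have h7 : Nat.card ↥(V ⊓ centralizer (zpowers a : Set G)) ≤ 2 := by
          rw [← d.cS]
          exact Subgroup.card_le_of_le hCa
        rw [← h5]
        calc _ ≤ 2 * 2 := Nat.mul_le_mul h6 h7
          _ = 4 := by norm_num
      have hcV' : Nat.card ↥V = 4 := by
        have h9 : 2 < Nat.card ↥V := by
          by_contra hcon
          push Not at hcon
          apply hVne
          apply (Subgroup.eq_of_le_of_card_ge hZV ?_).ge
          rw [d.cS]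
          exact hcon
        obtain ⟨k, hk⟩ := IsPGroup.iff_card.1 (isPGroup_of_elementary hVel)
        rw [hk] at h9 hcV4 ⊢
        rcases k with _ | _ | _ | k
        · norm_num at h9
        · norm_num at h9
        · norm_num
        · exfalso
          have : 2 ^ (k + 1 + 1 + 1) = 8 * 2 ^ k := by ring
          have h10 : 0 < 2 ^ k := by positivity
          omega
      -- `|S : Q| ≤ 2`
      have hSQ : Nat.card ↥(S : Subgroup G) ≤ 2 * Nat.card ↥Q := by
        have h5 : (S : Subgroup G) ⊓ centralizer (V : Set G) = Q := hLC.inf_C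
        have h6 := relIndex_centralizer_four_of_isPGroup hcV' (hL.1.1.trans hLV) S.isPGroup'
        rw [h5] at h6
        have h7 := card_mul_relIndex hQS
        rcases h6 with h6 | h6 <;> rw [h6] at h7 <;> omega
      have h5 : 4 ≤ Nat.card ↥(Vo (K ⊔ R) ⊓ Q) := by
        have h6 := card_sup_mul_card_inf (H := Vo (K ⊔ R)) (K := Q)
          ((d.V1_le.trans d.TS).trans (hL.1.1.trans le_normalizer_pCoreOf))
        have h7 : Nat.card ↥(Vo (K ⊔ R) ⊔ Q) ≤ 2 * Nat.card ↥Q :=
          (Subgroup.card_le_of_le (sup_le (d.V1_le.trans d.TS) hQS)).trans hSQ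
        rw [d.flK.fl.cardV, h4] at h6
        have h8 : 0 < Nat.card ↥Q := Nat.card_pos
        by_contra hcon
        push Not at hcon
        have h9 : Nat.card ↥(Vo (K ⊔ R) ⊔ Q) * Nat.card ↥(Vo (K ⊔ R) ⊓ Q) ≤
            2 * Nat.card ↥Q * 3 := Nat.mul_le_mul h7 (by omega)
        rw [h6] at h9
        omega
      obtain ⟨v, hv, hvZ⟩ : ∃ v ∈ Vo (K ⊔ R) ⊓ Q, v ∉ omegaCenterOf R := by
        by_contra hcon
        push Not at hcon
        have h6 : Vo (K ⊔ R) ⊓ Q = omegaCenterOf R :=
          Subgroup.eq_of_le_of_card_ge hcon (by rw [h4]; exact h5)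
        apply haQ
        have h7 : a ∈ Vo (K ⊔ R) ⊓ Q := by
          rw [h6]
          exact haZ
        exact h7.2
      have hV1 := d.V1_eq hv.1 hvZ
      have hZa : omegaCenterOf R = Z ⊔ zpowers a := by
        symm
        have h6 : Z ⊔ zpowers a ≤ omegaCenterOf R := sup_le d.ZS_le (by rwa [zpowers_le])
        apply Subgroup.eq_of_le_of_card_ge h6
        rw [h4]
        have h7 : Z < Z ⊔ zpowers a := by
          refine lt_of_le_of_ne le_sup_left ?_
          intro h8
          apply haQ
          apply hVQ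
          apply hZV
          rw [h8]
          exact (le_sup_right : zpowers a ≤ _) (mem_zpowers a)
        have h8 := card_mul_le_of_lt (p := 2) ((isPGroup_of_elementary
          (isElementaryAbelian_omegaCenterOf (X := R))).to_le h6) h7
        rw [d.cS] at h8
        omega
      have h6 : V ≤ normalizer (Vo (K ⊔ R) : Set G) := by
        rw [← hV1]
        apply H11.le_normalizer_sup
        · exact le_normalizer_of_comm_zpowers (Z := Z) (a := a) hVZ hca hZa
        · refine le_trans ?_ (Subgroup.centralizer_le_normalizer _)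
          refine omegaCenterOf_le_centralizer.trans (Subgroup.centralizer_le ?_)
          have : zpowers v ≤ Q := by
            rw [zpowers_le]
            exact hv.2
          exact this
      apply hVne
      refine (le_inf le_rfl ?_).trans hU
      refine (le_inf le_rfl ?_).trans hVR
      intro y hy
      exact d.normalizes_V1 (hVS hy) (h6 hy)

/-- **The configuration is contradictory** -/
theorem scenario (c : MCtx S L) (H : Hyp G) (hL : L ∈ jOvergroups (S : Subgroup G))
    (hstr : (S : Subgroup G) ∉ straddlingTwoSubgroups L) : False := by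
  by_cases hne : (straddlingTwoSubgroups L).Nonempty
  · obtain ⟨R, hR⟩ := exists_maxStraddling hne
    obtain ⟨S', c', hRS'⟩ := c.exists_sylow_ge (max_le hR) (max_pGroup hR)
    obtain ⟨g, hg, hgS⟩ := sylowIn_conj c.sylM c'.sylM
    have hL' : L ∈ jOvergroups (S' : Subgroup G) := by
      rw [← hgS]
      exact mem_jOvergroups_cj hg hL
    have hRne : R ≠ (S' : Subgroup G) := by
      intro h
      apply hstr
      apply mem_straddling_cj hg
      rw [hgS, ← h]
      exact max_mem hR
    obtain ⟨K, x, d⟩ := c'.lt_data H hR hRS' hRne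
    exact d.false H hL'
  · rw [Set.not_nonempty_iff_eq_empty] at hne
    exact strongly_embedded_false H hL (c.stronglyEmbedded_iff.2 hne)

end Cfsg.Agent.H49.JC
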