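import Cfsg.Agent.H49.JC.Am5
import Cfsg.Agent.H49.JC.Pr

/-!
# S2954
-/

set_option autoImplicit false
set_option linter.style.haveILetI false
set_option linter.unusedSectionVars false

namespace Cfsg.Agent.H49.JC

open Subgroup Cfsg H11 H34
open scoped commutatorElement

universe u

variable {G : Type u} [Group G] [Finite G] {T T' K K' K₁ K₂ C L M P X α β γ δ α' P₁ P₂ : Subgroup G}
  {g y : G} {m n b : ℕ} {a : ℕ → Subgroup G} {S : Sylow 2 G}

theorem Am.not_le_symm (h : Am T P₁ P₂) (hn : ¬ Vo P₁ ≤ Qo P₂) : ¬ Vo P₂ ≤ Qo P₁ :=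
  (crit_comm h.f1 h.f2 h.f1.V_le h.f2.V_le (fun h' => hn h'.1)).2.1

theorem Am.good_one (h : Am T P₁ P₂) (hV : Vo P₁ ≤ Qo P₂) : Good P₁ P₂ 1 := by
  have hV2 : Vo P₂ ≤ Qo P₁ := by
    by_contra hcon
    exact h.symm.not_le_symm hcon hV
  intro a w
  obtain ⟨x, ⟨h1, h2⟩ | ⟨h1, h2⟩⟩ := w.adj
  · rw [h1, h2, Vo_cj, Qo_cj, Vo_cj, Qo_cj]
    exact ⟨cj_mono hV, cj_mono hV2⟩
  · rw [h1, h2, Vo_cj, Qo_cj, Vo_cj, Qo_cj]
    exact ⟨cj_mono hV2, cj_mono hV⟩

theorem Am.exists_crit (h : Am T P₁ P₂) (hV : Vo P₁ ≤ Qo P₂) :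
    ∃ m a, 1 ≤ m ∧ (∀ n ≤ m, Good P₁ P₂ n) ∧ Crit P₁ P₂ m a := by
  classical
  have hex := h.exists_not_good
  obtain ⟨hb1, hb2⟩ : ¬ Good P₁ P₂ (Nat.find hex) ∧ ∀ n < Nat.find hex, Good P₁ P₂ n :=
    ⟨Nat.find_spec hex, fun n hn => by
      have := Nat.find_min hex hn
      push Not at this
      exact this⟩
  set b := Nat.find hex with hb
  obtain ⟨m, hm⟩ : ∃ m, b = m + 1 := by
    refine ⟨b - 1, ?_⟩
    have : b ≠ 0 := by
      intro h0
      rw [h0] at hb1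
      exact hb1 good_zero
    omega
  rw [hm] at hb1
  have hG : ∀ n ≤ m, Good P₁ P₂ n := fun n hn => hb2 n (by omega)
  have hm1 : 1 ≤ m := by
    rcases Nat.eq_zero_or_pos m with h0 | h0
    · subst h0
      exact absurd (h.good_one hV) hb1
    · exact h0
  unfold Good at hb1
  push Not at hb1
  obtain ⟨a, w, hbad⟩ := hb1
  exact ⟨m, a, hm1, hG, w, fun h1 => hbad h1.1 h1.2⟩

/-- order two -/
theorem two_main (h : Am T P₁ P₂) (h2 : Nat.card ↥(omegaCenterOf T) = 2) :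
    ¬ Vo P₁ ≤ Qo P₂ := by
  intro hV
  obtain ⟨m, a, hm, hG, c⟩ := h.exists_crit hV
  exact c.card_Z_ne_two h hG hm (by rw [c.walk.adj.card_Z h, h2])

/-- distance two -/
theorem four_main (h : Am T P₁ P₂) (h4 : Nat.card ↥(omegaCenterOf T) = 4)
    (hb : ¬ Good P₁ P₂ 2) : ¬ Vo P₁ ≤ Qo P₂ := by
  intro hV
  have hG1 := h.good_one hV
  have hG : ∀ n ≤ 1, Good P₁ P₂ n := by
    intro n hn
    interval_cases n
    · exact good_zero
    · exact hG1
  unfold Good at hb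
  push Not at hb
  obtain ⟨a, w, hbad⟩ := hb
  have c : Crit P₁ P₂ 1 a := ⟨w, fun h1 => hbad h1.1 h1.2⟩
  by_cases hN : Nr (a 0) (a 1)
  · exact c.false_of_two h h4 hG hN
  · exact c.false_of_not_Nr h h4 hG le_rfl hN

/-- the conjugating element, normalized -/
theorem exists_g (h : Am T P₁ P₂) (h4 : Nat.card ↥(omegaCenterOf T) = 4)
    (hV : Vo P₁ ≤ Qo P₂) : ∃ α, (α = P₁ ∨ α = P₂) ∧ ∃ g : G, cj g (zo T α) = zo T α ∧
      ¬ Vo α ≤ Qo (cj g α) := by
  obtain ⟨m, a, hm, hG, c⟩ := h.exists_crit hV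
  obtain ⟨g', hg0, hg1⟩ := c.exists_conj h h4 hG hm
  obtain ⟨e1, e2, e3, e4, e5⟩ := c.comm h hG hm
  have key : ∀ {α β : Subgroup G} {k : G}, Am T α β → a 0 = cj k α → a 1 = cj k β →
      ∃ g : G, cj g (zo T α) = zo T α ∧ ¬ Vo α ≤ Qo (cj g α) := by
    intro α β k hA h0 h1
    have hT : a 0 ⊓ a 1 = cj k T := by rw [h0, h1, ← cj_inf, hA.inf_eq]
    refine ⟨k⁻¹ * g' * k, ?_, ?_⟩
    · have h5 : a m ⊓ a (m + 1) = cj g' (cj k T) := by
        rw [← hT, cj_inf, hg0, hg1, inf_comm]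
      rw [h5, hT, ← hg0, h0, zo_cj, zo_cj, zo_cj] at e4
      rw [cj_mul, cj_mul, ← e4, cj_inv_cj]
    · intro h5
      apply e1
      rw [← hg0, h0]
      have h6 := cj_mono (g := k) h5
      rw [← Vo_cj, ← Qo_cj, ← cj_mul, show k * (k⁻¹ * g' * k) = g' * k by group, cj_mul] at h6
      exact h6
  obtain ⟨k, ⟨h1, h2⟩ | ⟨h1, h2⟩⟩ := c.walk.adj
  · exact ⟨P₁, Or.inl rfl, key h h1 h2⟩
  · exact ⟨P₂, Or.inr rfl, key h.symm h1 h2⟩

/-- at most one component for each hyperplane -/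
theorem Hyp.unique_D (H : Hyp G) (hSC : (S : Subgroup G) ≤ centralizer (Z0 (S : Subgroup G) : Set G))
    (hK : JComp (S : Subgroup G) K) (hK' : JComp (S : Subgroup G) K')
    (hD : DK (S : Subgroup G) K = DK (S : Subgroup G) K') (hD1 : DK (S : Subgroup G) K ≠ ⊥) :
    K = K' := by
  set D := DK (S : Subgroup G) K with hDdef
  have hN : IsTwoLocal (normalizer (D : Set G)) :=
    ⟨_, (isPGroup_of_elementary elem_Z0).to_le inf_le_left, hD1, rfl⟩
  have hSN : (S : Subgroup G) ≤ normalizer (D : Set G) :=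
    (hSC.trans (Subgroup.centralizer_le inf_le_left)).trans (Subgroup.centralizer_le_normalizer _)
  have hKN : K ≤ normalizer (D : Set G) := by
    refine le_trans ?_ (Subgroup.centralizer_le_normalizer _)
    rw [Subgroup.le_centralizer_iff]
    exact inf_le_right
  have hK'N : K' ≤ normalizer (D : Set G) := by
    refine le_trans ?_ (Subgroup.centralizer_le_normalizer _)
    rw [Subgroup.le_centralizer_iff, hD]
    exact inf_le_right
  have hsyl : IsSylowTwoIn (S : Subgroup G) (normalizer (D : Set G)) :=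
    sylowIn_of_le (isSylowTwoIn_sylow S) hSN le_top
  have h := H.lc_of_JComp hN hsyl hK hKN
  rcases h.dichotomy hK hKN hsyl hK' hK'N with h1 | ⟨-, h1, -⟩
  · exact h1
  exfalso
  have h2 : Z0 (S : Subgroup G) ⊓ wOf K ≤ DK (S : Subgroup G) K := by
    rw [← hDdef, hD]
    exact inf_le_inf le_rfl h1
  have h3 := hK.DK_inf
  rw [inf_eq_right.2 h2] at h3
  have h4 := hK.card_z S.isPGroup'
  rw [h3, Subgroup.card_bot] at h4
  omega

/-- odd order action on a group of order four -/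
theorem mem_centralizer_four {Z U : Subgroup G} (h4 : Nat.card ↥Z = 4)
    (hSZ : (S : Subgroup G) ≤ centralizer (Z : Set G))
    (hNZ : normalizer ((S : Subgroup G) : Set G) ≤ normalizer (Z : Set G))
    (hUZ : U ≤ Z) (hU : Nat.card ↥U = 2) {n : G} (hn : n ∈ normalizer ((S : Subgroup G) : Set G))
    (hnU : n ∈ normalizer (U : Set G)) : n ∈ centralizer (Z : Set G) := by
  set N := normalizer ((S : Subgroup G) : Set G) with hN
  -- the index of the centralizer is odd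
  have hle : (S : Subgroup G) ≤ N ⊓ centralizer (Z : Set G) := le_inf le_normalizer hSZ
  have hsyl : IsSylowTwoIn (S : Subgroup G) N :=
    sylowIn_of_le (isSylowTwoIn_sylow S) le_normalizer le_top
  have h6 : (N ⊓ centralizer (Z : Set G)).relIndex N ∣ 6 := relIndex_centralizer_four h4 hNZ
  have hodd : Odd ((N ⊓ centralizer (Z : Set G)).relIndex N) := by
    have h7 := Subgroup.relIndex_mul_relIndex _ _ _ hle (inf_le_left : N ⊓ _ ≤ N)
    have h8 := hsyl.2.2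
    rw [← h7] at h8
    exact (Nat.odd_mul.1 h8).2
  have h3 : (N ⊓ centralizer (Z : Set G)).relIndex N ∣ 3 := by
    have h9 : Nat.Coprime ((N ⊓ centralizer (Z : Set G)).relIndex N) 2 :=
      Nat.coprime_two_right.2 hodd
    exact h9.dvd_of_dvd_mul_left (show _ ∣ 2 * 3 from h6)
  have hnorm : ((N ⊓ centralizer (Z : Set G)).subgroupOf N).Normal :=
    (normal_subgroupOf_iff_le_normalizer inf_le_left).2
      (H11.le_normalizer_inf le_normalizer (H11.le_normalizer_centralizer hNZ))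
  have hn3 : n ^ 3 ∈ centralizer (Z : Set G) := by
    have h5 := Subgroup.pow_index_mem ((N ⊓ centralizer (Z : Set G)).subgroupOf N) ⟨n, hn⟩
    rw [mem_subgroupOf] at h5
    have h5' : n ^ ((N ⊓ centralizer (Z : Set G)).relIndex N) ∈ N ⊓ centralizer (Z : Set G) := h5
    obtain ⟨k, hk⟩ := h3
    rw [hk, pow_mul]
    exact pow_mem h5'.2 k
  -- the square
  have hnu : ∀ u ∈ U, n * u * n⁻¹ = u := by
    intro u hu
    have h5 := le_centralizer_of_card_two hU (D := zpowers n) (by rwa [zpowers_le])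
    have h7 := mem_centralizer_iff.1 (h5 (mem_zpowers n)) u hu
    rw [← h7]
    group
  have hUi : (U.subgroupOf Z).index = 2 := by
    have h5 := card_mul_relIndex hUZ
    rw [h4, hU] at h5
    have h7 : U.relIndex Z = 2 := by omega
    exact h7
  obtain ⟨e, he⟩ : ∃ e ∈ Z, e ∉ U := by
    by_contra hcon
    push Not at hcon
    have := Subgroup.card_le_of_le (show Z ≤ U from hcon)
    omega
  obtain ⟨heZ, heU⟩ := he
  have hneZ : n * e * n⁻¹ ∈ Z := (mem_normalizer_iff.1 (hNZ hn) e).1 heZ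
  have hneU : n * e * n⁻¹ ∉ U := fun h5 => heU ((mem_normalizer_iff.1 hnU e).2 h5)
  have hprod : (n * e * n⁻¹) * e⁻¹ ∈ U := by
    have h5 := (Subgroup.mul_mem_iff_of_index_two hUi (a := ⟨n * e * n⁻¹, hneZ⟩)
      (b := ⟨e⁻¹, inv_mem heZ⟩)).2
    simp only [mem_subgroupOf] at h5
    apply h5
    exact ⟨fun h => absurd h hneU, fun h => absurd (inv_mem_iff.1 h) heU⟩
  set u := (n * e * n⁻¹) * e⁻¹ with hu
  have hne : n * e * n⁻¹ = u * e := by rw [hu]; group
  have hUel : u * u = 1 := by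
    have h5 : u ^ Nat.card U = 1 := by
      have := pow_card_eq_one' (x := (⟨u, hprod⟩ : U))
      exact congrArg Subtype.val this
    rw [hU, pow_two] at h5
    exact h5
  have hn2 : n ^ 2 ∈ centralizer (Z : Set G) := by
    have h5 : U ⊔ zpowers e = Z := by
      rcases eq_or_eq_of_relIndex_prime Nat.prime_two (le_sup_left : U ≤ U ⊔ zpowers e)
        (sup_le hUZ (by rwa [zpowers_le])) hUi with h7 | h7
      · exfalso
        apply heU
        rw [← h7]
        exact (le_sup_right : zpowers e ≤ _) (mem_zpowers e)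
      · exact h7
    have h7 : Z ≤ centralizer (zpowers (n ^ 2) : Set G) := by
      conv_lhs => rw [← h5]
      refine sup_le ?_ ?_
      · intro v hv
        rw [mem_centralizer_iff]
        intro z hz
        obtain ⟨i, rfl⟩ := mem_zpowers_iff.1 hz
        have h8 : Commute n v := by
          have : n * v = (n * v * n⁻¹) * n := by group
          rw [hnu v hv] at this
          exact this
        exact ((h8.pow_left 2).zpow_left i)
      · rw [zpowers_le, mem_centralizer_iff]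
        intro z hz
        obtain ⟨i, rfl⟩ := mem_zpowers_iff.1 hz
        have h8 : Commute (n ^ 2) e := by
          have h9 : n ^ 2 * e = (n * (n * e * n⁻¹) * n⁻¹) * n ^ 2 := by
            rw [pow_two]
            group
          have h10 : n * (u * e) * n⁻¹ = e := by
            have : n * (u * e) * n⁻¹ = (n * u * n⁻¹) * (n * e * n⁻¹) := by group
            rw [this, hnu u hprod, hne, ← mul_assoc, hUel, one_mul]
          rw [hne, h10] at h9
          exact h9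
        exact (h8.zpow_left i)
    rw [Subgroup.le_centralizer_iff, zpowers_le] at h7
    exact h7
  have h5 : n = n ^ 3 * (n ^ 2)⁻¹ := by
    rw [pow_succ n 2]
    have : n ^ 2 * n = n * n ^ 2 := (Commute.self_pow n 2).eq.symm
    rw [this]
    group
  rw [h5]
  exact mul_mem hn3 (inv_mem hn2)

theorem eq_key (H : Hyp G) (d : Cmp (S : Subgroup G) K L)
    (hZ : omegaCenterOf (S : Subgroup G) = Z0 (S : Subgroup G))
    (h4 : Nat.card ↥(Z0 (S : Subgroup G)) = 4)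
    (hg : cj g (zo (S : Subgroup G) (K ⊔ (S : Subgroup G))) =
      zo (S : Subgroup G) (K ⊔ (S : Subgroup G)))
    (hV : ¬ Vo (K ⊔ (S : Subgroup G)) ≤ Qo (cj g (K ⊔ (S : Subgroup G)))) :
    ∃ (C : Subgroup G) (h : G) (L' : Subgroup G), FlK (S : Subgroup G) C ∧ h ∈ C ∧ ¬ C ≤ L ∧
      ¬ Vo (K ⊔ (S : Subgroup G)) ≤ Qo (cj h (K ⊔ (S : Subgroup G))) ∧
      L' ∈ jOvergroups (S : Subgroup G) ∧ C ≤ L' := by
  have hS := S.isPGroup'
  set P := K ⊔ (S : Subgroup G) with hP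
  set U := zo (S : Subgroup G) P with hU
  have hU2 : Nat.card ↥U = 2 := d.fl.fl.card_zo
  have hUZ : U ≤ Z0 (S : Subgroup G) := by
    rw [← hZ]
    exact inf_le_left
  have hU1 : U ≠ ⊥ := d.fl.fl.zo_ne_bot
  have hNJ : normalizer (JJ (S : Subgroup G) : Set G) ≤ normalizer ((S : Subgroup G) : Set G) := by
    refine le_trans ?_ (H.normalizer_Z_le S)
    rw [hZ]
    exact normalizer_le_omegaCenterOf
  have hSC := d.fl.cen
  have hDK : ∀ {K' : Subgroup G}, JComp (S : Subgroup G) K' →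
      Nat.card ↥(DK (S : Subgroup G) K') = 2 := by
    intro K' hK'
    have := hK'.card_DK hS
    omega
  have hDK1 : ∀ {K' : Subgroup G}, JComp (S : Subgroup G) K' → DK (S : Subgroup G) K' ≠ ⊥ := by
    intro K' hK' h
    have := hDK hK'
    rw [h, Subgroup.card_bot] at this
    omega
  have hfix : ∀ {K' : Subgroup G}, JComp (S : Subgroup G) K' → ∀ n : G,
      n ∈ normalizer ((S : Subgroup G) : Set G) → n ∈ normalizer (U : Set G) →
      cj n K' = K' := by
    intro K' hK' n hn hnU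
    have h1 : n ∈ centralizer (Z0 (S : Subgroup G) : Set G) :=
      mem_centralizer_four h4 hSC normalizer_le_Z0 hUZ hU2 hn hnU
    have h2 := hK'.conj_of_normalizer (normalizer_le_thompson hn)
    have h3 : DK (S : Subgroup G) (cj n K') = DK (S : Subgroup G) K' := by
      rw [DK_cj (normalizer_le_thompson hn)]
      exact cj_of_centralizer h1 inf_le_left
    exact H.unique_D hSC h2 hK' h3 (hDK1 h2)
  set H1 := normalizer (U : Set G) with hH1
  have hH1t : IsTwoLocal H1 := ⟨_, (isPGroup_of_elementary elem_Z0).to_le hUZ, hU1, rfl⟩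
  have hSH : (S : Subgroup G) ≤ H1 :=
    (hSC.trans (Subgroup.centralizer_le hUZ)).trans (Subgroup.centralizer_le_normalizer _)
  have hsyl : IsSylowTwoIn (S : Subgroup G) H1 := sylowIn_of_le (isSylowTwoIn_sylow S) hSH le_top
  have hgH : g ∈ H1 := mem_normalizer_iff_cj.2 hg
  have hcjP : ∀ n : G, n ∈ normalizer ((S : Subgroup G) : Set G) → n ∈ H1 → cj n P = P := by
    intro n hn hnU
    rw [hP, cj_sup, cj_of_mem hn, hfix d.fl.jc n hn hnU]
  by_cases hJ : JJ (S : Subgroup G) ≤ pCoreOf 2 H1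
  · exfalso
    have h1 : JJ (pCoreOf 2 H1) = JJ (S : Subgroup G) :=
      thompson_eq_of_le hJ (pCoreOf_le_sylowIn hsyl)
    have h2 : H1 ≤ normalizer ((S : Subgroup G) : Set G) := by
      refine le_trans ?_ hNJ
      rw [← h1]
      exact (le_normalizer_pCoreOf (p := 2)).trans normalizer_le_thompson
    apply hV
    rw [hcjP g (h2 hgH) hgH]
    exact Vo_le_Qo
  have hmem : H1 ∈ jOvergroups (S : Subgroup G) := ⟨hsyl, hJ, H.centralizer_le hH1t⟩
  have hlc := H.lc_of_twoLocal hH1t hsyl hJ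
  obtain ⟨C, hC, hCH⟩ := hlc.exists_jComp
  have hDU : ∀ {K' : Subgroup G}, JComp (S : Subgroup G) K' → K' ≤ H1 →
      DK (S : Subgroup G) K' = U := by
    intro K' hK' hK'H
    symm
    apply sub_eq_of_card_two (hDK hK') _ hU1
    refine le_inf hUZ ?_
    rw [Subgroup.le_centralizer_iff]
    exact le_centralizer_of_card_two hU2 hK'H
  have huniq : ∀ {K' : Subgroup G}, JComp (S : Subgroup G) K' → K' ≤ H1 → K' = C := by
    intro K' hK' hK'H
    exact H.unique_D hSC hK' hC ((hDU hK' hK'H).trans (hDU hC hCH).symm) (hDK1 hK')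
  -- `H₁ = C N(S)`
  set N' := H1 ⊓ normalizer (JJ (S : Subgroup G) : Set G) with hN'
  have hN'C : N' ≤ normalizer (C : Set G) := by
    intro n hn
    rw [mem_normalizer_iff_cj]
    exact hfix hC n (hNJ hn.2) hn.1
  have hgen : H1 ≤ N' ⊔ C := by
    conv_lhs => rw [← hlc.gen]
    refine sup_le (sSup_le ?_) le_sup_left
    rintro K' ⟨hK', hK'H⟩
    rw [huniq hK' hK'H]
    exact le_sup_right
  obtain ⟨n, hn, k, hk, hgnk⟩ := (mem_sup_of_le_normalizer hN'C).1 (hgen hgH)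
  have hhC : n * k * n⁻¹ ∈ C := conj_mem hN'C hn hk
  have hgh : g = (n * k * n⁻¹) * n := by
    rw [hgnk]
    group
  have hcjg : cj g P = cj (n * k * n⁻¹) P := by
    rw [hgh, cj_mul, hcjP n (hNJ hn.2) hn.1]
  rw [hcjg] at hV
  set h := n * k * n⁻¹ with hh
  refine ⟨C, h, H1, H.flK hmem hC hCH hSC, hhC, ?_, hV, hmem, hCH⟩
  -- `C ≰ L`
  intro hCL
  have hL := H.lc_of_mem d.mem
  have hK := d.fl.jc
  have hCK : C ≤ normalizer (K : Set G) :=
    le_sup_left.trans (hL.le_normalizer_JComp hK d.KL d.mem.1 hC hCL)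
  rcases hL.dichotomy hK d.KL d.mem.1 hC hCL with h1 | ⟨h1, h2, h3⟩
  · have h5 := hDU hC hCH
    rw [← h1] at h5
    have h6 := hK.DK_inf
    rw [← d.fl.zo_eq, h5, inf_idem] at h6
    exact hU1 h6
  · apply hV
    have h5 : Z0 (S : Subgroup G) ⊓ wOf C = DK (S : Subgroup G) K := by
      apply sub_eq_of_card_two (hDK hK) (inf_le_inf le_rfl h3)
      intro h6
      have := hC.card_z hS
      rw [h6, Subgroup.card_bot] at this
      omega
    have hDC : DK (S : Subgroup G) K ≤ wOf C := by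
      rw [← h5]
      exact inf_le_right
    have hhK : h⁻¹ ∈ normalizer (wOf K : Set G) := normalizer_le_wOf (hCK (inv_mem hhC))
    have hcW : cj h⁻¹ (wOf K) = wOf K := cj_of_mem hhK
    have hcC : cj h⁻¹ (wOf C) = wOf C :=
      cj_of_mem (normalizer_le_wOf (le_normalizer (inv_mem hhC)))
    have hCS : wOf C ≤ (S : Subgroup G) := (hL.w_le hC hCL).trans (omegaCenterOf_le.trans hL.O_le)
    rw [Qo_cj, le_cj_iff, d.fl.Q_eq, ← d.fl.sup_eq, d.fl.D_eq', cj_sup, hcW]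
    refine sup_le ?_ ?_
    · refine le_inf (wOf_le.trans le_sup_left) ?_
      exact (comm_iff_le_centralizer _).1 isElementaryAbelian_wOf.1
    · refine le_inf ?_ ?_
      · have h7 := cj_mono (g := h⁻¹) hDC
        rw [hcC] at h7
        exact (h7.trans hCS).trans le_sup_right
      · have h7 : DK (S : Subgroup G) K ≤ centralizer (wOf K : Set G) :=
          inf_le_right.trans (Subgroup.centralizer_le wOf_le)
        have h8 := cj_mono (g := h⁻¹) h7
        rwa [cj_centralizer, hcW] at h8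

theorem exists_maximalTwoLocal {N : Subgroup G} (hN : IsTwoLocal N) :
    ∃ L : Subgroup G, N ≤ L ∧ IsMaximalTwoLocal L := by
  obtain ⟨L, hL, hmax⟩ := (Set.toFinite {L : Subgroup G | IsTwoLocal L}).exists_le_maximal hN
  exact ⟨L, hL, hmax.1, fun N' hN' hLN' => le_antisymm (hmax.2 hN' hLN') hLN'⟩

theorem mem_of_over (H : Hyp G) {L' : Subgroup G} (hL' : L' ∈ jOvergroups (S : Subgroup G))
    (hC : JComp (S : Subgroup G) C) (hCL : C ≤ L') :
    ∃ L : Subgroup G, IsMaximalTwoLocal L ∧ L ∈ jOvergroups (S : Subgroup G) ∧ C ≤ L := by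
  have hQ : pCoreOf 2 L' ≠ ⊥ := H.not_pGroup_one L' hL'.2.2
  obtain ⟨L, hNL, hmax⟩ := exists_maximalTwoLocal
    (N := normalizer (pCoreOf 2 L' : Set G)) ⟨_, isPGroup_pCoreOf, hQ, rfl⟩
  have hLL : L' ≤ L := le_normalizer_pCoreOf.trans hNL
  have hsyl : IsSylowTwoIn (S : Subgroup G) L :=
    sylowIn_of_le (isSylowTwoIn_sylow S) (hL'.1.1.trans hLL) le_top
  refine ⟨L, hmax, ⟨hsyl, ?_, H.centralizer_le hmax.1⟩, hCL.trans hLL⟩
  intro h
  apply hC.not_isPGroup
  have h2 : C ≤ pCoreOf 2 L := by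
    rw [← hC.comm_eq]
    refine (Subgroup.commutator_mono (hCL.trans hLL) h).trans ?_
    rw [Subgroup.commutator_comm]
    exact commutator_le_of_normalizer le_normalizer_pCoreOf
  exact isPGroup_pCoreOf.to_le h2

/-- the final pair of components -/
structure Fin2 (T K₁ K₂ : Subgroup G) : Prop where
  f1 : FlK T K₁
  f2 : FlK T K₂
  am : Am T (K₁ ⊔ T) (K₂ ⊔ T)
  nle : ¬ Vo (K₁ ⊔ T) ≤ Qo (K₂ ⊔ T)
  m1 : ∃ L, IsMaximalTwoLocal L ∧ L ∈ jOvergroups T ∧ K₁ ≤ L
  m2 : ∃ L, IsMaximalTwoLocal L ∧ L ∈ jOvergroups T ∧ K₂ ≤ L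
  cZ : Nat.card ↥(omegaCenterOf T) = 2 ∨ Nat.card ↥(omegaCenterOf T) = 4

theorem Fin2.main (d : Fin2 T K₁ K₂) (H : Hyp G) :
    ∃ P₁ P₂ : Subgroup G, P₁ ≠ P₂ ∧ IsMaximalTwoLocal P₁ ∧ IsMaximalTwoLocal P₂ ∧
      IsSylowTwoIn T P₁ ∧ IsSylowTwoIn T P₂ ∧
      ((Nonempty (↥P₁ ≃* Equiv.Perm (Fin 4)) ∧ Nonempty (↥P₂ ≃* Equiv.Perm (Fin 4))) ∨
        (Nonempty (↥P₁ ≃* Equiv.Perm (Fin 4) × Multiplicative (ZMod 2)) ∧
          Nonempty (↥P₂ ≃* Equiv.Perm (Fin 4) × Multiplicative (ZMod 2)))) := by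
  obtain ⟨hQ1, hQ2, hV12, hT12⟩ := d.am.b_one d.nle
  have hmax : ∀ {K : Subgroup G}, FlK T K → Qo (K ⊔ T) = Vo (K ⊔ T) →
      (∃ L, IsMaximalTwoLocal L ∧ L ∈ jOvergroups T ∧ K ≤ L) → IsMaximalTwoLocal (K ⊔ T) := by
    rintro K f hQ ⟨L, hL, hLm, hKL⟩
    rw [← f.eq_of H hLm hKL hQ d.cZ]
    exact hL
  have ht1 : ∃ t ∈ T, t ^ 2 = 1 ∧ t ∉ Vo (K₁ ⊔ T) := by
    obtain ⟨t, ht, htV⟩ := Set.not_subset.1 (d.am.not_le_symm d.nle)
    exact ⟨t, d.am.f2.V_le ht, elem_Vo.2 t ht, fun h => htV (by rw [hQ1]; exact h)⟩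
  have ht2 : ∃ t ∈ T, t ^ 2 = 1 ∧ t ∉ Vo (K₂ ⊔ T) := by
    obtain ⟨t, ht, htV⟩ := Set.not_subset.1 d.nle
    exact ⟨t, d.am.f1.V_le ht, elem_Vo.2 t ht, fun h => htV (by rw [hQ2]; exact h)⟩
  obtain ⟨t1, ht1, ht12, ht1V⟩ := ht1
  obtain ⟨t2, ht2, ht22, ht2V⟩ := ht2
  obtain ⟨i2, i4⟩ := d.f1.iso hQ1 ht1 ht12 ht1V
  obtain ⟨j2, j4⟩ := d.f2.iso hQ2 ht2 ht22 ht2V
  refine ⟨_, _, d.am.ne, hmax d.f1 hQ1 d.m1, hmax d.f2 hQ2 d.m2, d.am.f1.syl, d.am.f2.syl, ?_⟩
  rcases d.cZ with h | h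
  · exact Or.inl ⟨i2 h, j2 h⟩
  · exact Or.inr ⟨i4 h, j4 h⟩

theorem eq_fin2 (H : Hyp G) (c : MCtx S M)
    (hT : (S : Subgroup G) ∈ maxStraddlingTwoSubgroups M) :
    ∃ K₁ K₂ : Subgroup G, Fin2 (S : Subgroup G) K₁ K₂ := by
  obtain ⟨K₁, K₂, L₁, L₂, d₁, d₂, hne⟩ := c.pair H hT
  have am := d₁.am d₂ hne
  have hcZ : Nat.card ↥(omegaCenterOf (S : Subgroup G)) = 2 ∨
      Nat.card ↥(omegaCenterOf (S : Subgroup G)) = 4 := by
    rw [d₁.fl.Z_eq]
    exact d₁.cZ
  by_cases hV : Vo (K₁ ⊔ (S : Subgroup G)) ≤ Qo (K₂ ⊔ (S : Subgroup G))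
  · -- distance at least two
    have h4 : Nat.card ↥(omegaCenterOf (S : Subgroup G)) = 4 := by
      rcases hcZ with h2 | h4
      · exact absurd hV (two_main am h2)
      · exact h4
    obtain ⟨α, hα, g, hg1, hg2⟩ := exists_g am h4 hV
    have key : ∀ {K L : Subgroup G}, Cmp (S : Subgroup G) K L →
        cj g (zo (S : Subgroup G) (K ⊔ (S : Subgroup G))) =
          zo (S : Subgroup G) (K ⊔ (S : Subgroup G)) →
        ¬ Vo (K ⊔ (S : Subgroup G)) ≤ Qo (cj g (K ⊔ (S : Subgroup G))) →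
        ∃ K₁ K₂ : Subgroup G, Fin2 (S : Subgroup G) K₁ K₂ := by
      intro K L d hg hV
      have hZ := d.fl.Z_eq
      obtain ⟨C, h, L', fC, hh, hCL, hVh, hL', hCL'⟩ :=
        eq_key H d hZ (by rw [← hZ, h4]) hg hV
      have am' : Am (S : Subgroup G) (K ⊔ (S : Subgroup G)) (C ⊔ (S : Subgroup G)) := by
        refine ⟨d.fl.fl, fC.fl, ?_⟩
        intro X hX h1 h2
        by_contra hX1
        apply hCL
        refine le_trans (le_sup_left.trans h2) ?_
        exact d.le _ ⟨X, hX, hX1, rfl⟩ ((sup_le_sup le_rfl JJ_le).trans h1)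
      refine ⟨K, C, d.fl, fC, am', ?_, ⟨L, d.max, d.mem, d.KL⟩, mem_of_over H hL' fC.jc hCL', hcZ⟩
      apply four_main am' h4
      intro hgood
      apply hVh
      set a : ℕ → Subgroup G := fun i =>
        if i = 0 then K ⊔ (S : Subgroup G)
        else if i = 1 then C ⊔ (S : Subgroup G) else cj h (K ⊔ (S : Subgroup G)) with ha
      have w : Walk (K ⊔ (S : Subgroup G)) (C ⊔ (S : Subgroup G)) 2 a := by
        refine ⟨?_, ?_⟩
        · simpa [ha] using Adj.refl _ _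
        · intro i hi
          have : i = 0 := by omega
          subst this
          refine ⟨h, ?_, ?_⟩
          · have h1 : h ∈ C ⊔ (S : Subgroup G) := (le_sup_left : C ≤ _) hh
            simpa [ha] using h1
          · simp [ha]
      have := (hgood a w).1
      simpa [ha] using this
    rcases hα with rfl | rfl
    · exact key d₁ hg1 hg2
    · exact key d₂ hg1 hg2
  · exact ⟨K₁, K₂, d₁.fl, d₂.fl, am, hV, ⟨L₁, d₁.max, d₁.mem, d₁.KL⟩,
      ⟨L₂, d₂.max, d₂.mem, d₂.KL⟩, hcZ⟩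

/-- **S2954** -/
theorem s2954 (c : MCtx S M) (H : Hyp G) (hT : T ∈ maxStraddlingTwoSubgroups M) :
    ∃ P₁ P₂ : Subgroup G, P₁ ≠ P₂ ∧ IsMaximalTwoLocal P₁ ∧ IsMaximalTwoLocal P₂ ∧
      IsSylowTwoIn T P₁ ∧ IsSylowTwoIn T P₂ ∧
      ((Nonempty (↥P₁ ≃* Equiv.Perm (Fin 4)) ∧ Nonempty (↥P₂ ≃* Equiv.Perm (Fin 4))) ∨
        (Nonempty (↥P₁ ≃* Equiv.Perm (Fin 4) × Multiplicative (ZMod 2)) ∧
          Nonempty (↥P₂ ≃* Equiv.Perm (Fin 4) × Multiplicative (ZMod 2)))) := by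
  obtain ⟨S', c', hTS'⟩ := c.exists_sylow_ge (max_le hT) (max_pGroup hT)
  by_cases hne : T = (S' : Subgroup G)
  · subst hne
    obtain ⟨K₁, K₂, d⟩ := eq_fin2 H c' hT
    exact d.main H
  · exact c'.lt_main H hT hTS' hne

end Cfsg.Agent.H49.JC
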